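import Mathlib

/-!
Weight spaces of an elementary abelian three-group acting over a field with a cube root of unity.
-/

set_option autoImplicit false

namespace CfsgLib.E8Alt74

open Module

variable {k : Type*} [Field k] {V : Type*} [AddCommGroup V] [Module k V] {d : ℕ} {ζ : k}

/-- Vectors of exponents. -/
abbrev Exp (d : ℕ) := Fin d → ZMod 3

/-- The characters attached to a weight. -/
noncomputable def chi (hζ : ζ ^ 3 = 1) (μ : Exp d) : AddChar (Exp d) k where
  toFun v := AddChar.zmodChar 3 hζ (∑ i, μ i * v i)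
  map_zero_eq_one' := by simp
  map_add_eq_mul' a b := by
    simp [mul_add, Finset.sum_add_distrib, AddChar.map_add_eq_mul]

theorem chi_apply (hζ : ζ ^ 3 = 1) (μ v : Exp d) :
    chi hζ μ v = AddChar.zmodChar 3 hζ (∑ i, μ i * v i) := rfl

theorem chi_comm (hζ : ζ ^ 3 = 1) (μ v : Exp d) : chi hζ μ v = chi hζ v μ := by
  simp [chi_apply, mul_comm]

theorem chi_sub (hζ : ζ ^ 3 = 1) (μ ν v : Exp d) :
    chi hζ (μ - ν) v = chi hζ ν (-v) * chi hζ μ v := by
  simp only [chi_apply, ← AddChar.map_add_eq_mul, Pi.sub_apply, Pi.neg_apply]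
  congr 1
  rw [← Finset.sum_add_distrib]
  exact Finset.sum_congr rfl fun i _ => by ring

theorem zmodChar_eq_one (hζ : IsPrimitiveRoot ζ 3) {a : ZMod 3}
    (h : AddChar.zmodChar 3 hζ.pow_eq_one a = 1) : a = 0 := by
  rw [AddChar.zmodChar_apply] at h
  have h2 := (hζ.pow_eq_one_iff_dvd _).1 h
  have h3 := a.val_lt
  exact (ZMod.val_eq_zero a).1 (Nat.eq_zero_of_dvd_of_lt h2 h3)

theorem sum_chi (hζ : IsPrimitiveRoot ζ 3) (μ : Exp d) :
    ∑ v, chi hζ.pow_eq_one μ v = if μ = 0 then (3 : k) ^ d else 0 := by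
  classical
  by_cases h : μ = 0
  · subst h
    rw [if_pos rfl]
    simp [chi_apply]
  · rw [if_neg h]
    refine AddChar.sum_eq_zero_of_ne_one fun e => ?_
    obtain ⟨i, hi⟩ : ∃ i, μ i ≠ 0 := by
      by_contra hall
      push Not at hall
      exact h (funext hall)
    refine hi (zmodChar_eq_one hζ ?_)
    have h1 := DFunLike.congr_fun e (Pi.single i 1 : Exp d)
    rw [chi_apply, AddChar.one_apply] at h1
    simpa [Pi.single_apply] using h1

variable (T : Exp d → End k V)

/-- The weight space of `μ`. -/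
noncomputable def wt (hζ : ζ ^ 3 = 1) (μ : Exp d) : Submodule k V :=
  ⨅ v : Exp d, End.eigenspace (T v) (chi hζ μ v)

theorem mem_wt {hζ : ζ ^ 3 = 1} {μ : Exp d} {x : V} :
    x ∈ wt T hζ μ ↔ ∀ v, T v x = chi hζ μ v • x := by
  simp [wt, End.mem_eigenspace_iff]

/-- The projection on a weight space. -/
noncomputable def proj (hζ : ζ ^ 3 = 1) (μ : Exp d) : End k V :=
  ((3 : k) ^ d)⁻¹ • ∑ v, chi hζ μ (-v) • T v

theorem proj_apply (hζ : ζ ^ 3 = 1) (μ : Exp d) (x : V) :
    proj T hζ μ x = ((3 : k) ^ d)⁻¹ • ∑ v, chi hζ μ (-v) • T v x := by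
  simp [proj, LinearMap.sum_apply]

theorem pow_three_ne_zero (hζ : IsPrimitiveRoot ζ 3) : (3 : k) ^ d ≠ 0 := by
  refine pow_ne_zero _ fun h3 => ?_
  have e : (ζ - 1) ^ 3 = 0 := by linear_combination hζ.pow_eq_one + (ζ - ζ ^ 2) * h3
  exact hζ.ne_one (by norm_num) (sub_eq_zero.1 ((pow_eq_zero_iff (by norm_num)).1 e))

theorem proj_mem (hζ : IsPrimitiveRoot ζ 3) (hmul : ∀ a b, T (a + b) = T a * T b) (μ : Exp d) (x : V) :
    proj T hζ.pow_eq_one μ x ∈ wt T hζ.pow_eq_one μ := by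
  classical
  rw [mem_wt]
  intro w
  rw [proj_apply, map_smul, map_sum, smul_comm (chi hζ.pow_eq_one μ w)]
  congr 1
  rw [Finset.smul_sum]
  refine Fintype.sum_equiv (Equiv.addLeft w) _ _ fun v => ?_
  rw [map_smul, smul_smul, Equiv.coe_addLeft, ← AddChar.map_add_eq_mul, hmul, End.mul_apply]
  congr 2
  ring

theorem proj_of_mem (hζ : IsPrimitiveRoot ζ 3) {μ ν : Exp d} {x : V}
    (hx : x ∈ wt T hζ.pow_eq_one μ) :
    proj T hζ.pow_eq_one ν x = if ν = μ then x else 0 := by
  classical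
  rw [proj_apply, Finset.sum_congr rfl (fun v _ => by
    rw [(mem_wt T).1 hx v, smul_smul, ← chi_sub hζ.pow_eq_one μ ν v]), ← Finset.sum_smul, smul_smul,
    sum_chi hζ]
  by_cases h : ν = μ
  · rw [if_pos h, if_pos (by rw [h, sub_self]), inv_mul_cancel₀ (pow_three_ne_zero hζ), one_smul]
  · rw [if_neg h, if_neg (sub_ne_zero.2 (Ne.symm h)), mul_zero, zero_smul]

theorem sum_proj (hζ : IsPrimitiveRoot ζ 3) (h0 : T 0 = 1) (x : V) :
    ∑ μ, proj T hζ.pow_eq_one μ x = x := by
  classical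
  simp only [proj_apply]
  rw [← Finset.smul_sum, Finset.sum_comm]
  simp_rw [← Finset.sum_smul, chi_comm hζ.pow_eq_one _ (-_), sum_chi hζ, ite_smul, zero_smul,
    neg_eq_zero]
  rw [Finset.sum_ite_eq' Finset.univ (0 : Exp d), if_pos (Finset.mem_univ _), smul_smul,
    inv_mul_cancel₀ (pow_three_ne_zero hζ), one_smul, h0, End.one_apply]

/-- A space is the sum of its weight spaces. -/
noncomputable def wtEquiv (hζ : IsPrimitiveRoot ζ 3) (hmul : ∀ a b, T (a + b) = T a * T b)
    (h0 : T 0 = 1) : V ≃ₗ[k] ((μ : Exp d) → ↥(wt T hζ.pow_eq_one μ)) where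
  toFun x μ := ⟨proj T hζ.pow_eq_one μ x, proj_mem T hζ hmul μ x⟩
  map_add' a b := by funext μ; exact Subtype.ext (map_add _ a b)
  map_smul' c a := by funext μ; exact Subtype.ext (map_smul _ c a)
  invFun f := ∑ μ, (f μ : V)
  left_inv x := sum_proj T hζ h0 x
  right_inv f := by
    classical
    funext ν
    refine Subtype.ext ?_
    show proj T hζ.pow_eq_one ν (∑ μ, (f μ : V)) = (f ν : V)
    rw [map_sum, Finset.sum_congr rfl (fun μ _ => proj_of_mem T hζ (f μ).2), Finset.sum_ite_eq,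
      if_pos (Finset.mem_univ _)]

variable [FiniteDimensional k V]

theorem finrank_eq_sum (hζ : IsPrimitiveRoot ζ 3) (hmul : ∀ a b, T (a + b) = T a * T b)
    (h0 : T 0 = 1) : finrank k V = ∑ μ, finrank k ↥(wt T hζ.pow_eq_one μ) := by
  rw [(wtEquiv T hζ hmul h0).finrank_eq, Module.finrank_pi_fintype]

set_option maxHeartbeats 1000000 in
/-- The fixed space of an element is the sum of the weight spaces on which it is trivial. -/
theorem finrank_fixed (hζ : IsPrimitiveRoot ζ 3) (hmul : ∀ a b, T (a + b) = T a * T b)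
    (h0 : T 0 = 1) (w : Exp d) :
    finrank k ↥(End.eigenspace (T w) 1) =
      ∑ μ with ∑ i, μ i * w i = 0, finrank k ↥(wt T hζ.pow_eq_one μ) := by
  classical
  let p : Exp d → Prop := fun μ => ∑ i, μ i * w i = 0
  have hp : ∀ {μ}, p μ → chi hζ.pow_eq_one μ w = 1 := fun {μ} h => by
    rw [chi_apply, show (∑ i, μ i * w i) = 0 from h, AddChar.map_zero_eq_one]
  have hout : ∀ y : V, T w y = y → ∀ μ, ¬ p μ → proj T hζ.pow_eq_one μ y = 0 := by
    intro y hy μ hμ
    have h1 := (mem_wt T).1 (proj_mem T hζ hmul μ y) w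
    have h2 : T w (proj T hζ.pow_eq_one μ y) = proj T hζ.pow_eq_one μ y := by
      rw [proj_apply, map_smul, map_sum]
      refine congrArg _ (Finset.sum_congr rfl fun v _ => ?_)
      rw [map_smul, ← End.mul_apply, ← hmul, add_comm, hmul, End.mul_apply, hy]
    rw [h2] at h1
    have hne : chi hζ.pow_eq_one μ w ≠ 1 := fun e =>
      hμ (zmodChar_eq_one hζ (by rwa [chi_apply] at e))
    have h3 : (chi hζ.pow_eq_one μ w - 1) • proj T hζ.pow_eq_one μ y = 0 := by
      rw [sub_smul, one_smul, ← h1, sub_self]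
    exact (smul_eq_zero.1 h3).resolve_left (sub_ne_zero.2 hne)
  have hfix : ∀ y : ↥(End.eigenspace (T w) 1), T w (y : V) = y := fun y => by
    have h := End.mem_eigenspace_iff.1 y.2
    rwa [one_smul] at h
  let e : ↥(End.eigenspace (T w) 1) ≃ₗ[k] ((μ : {μ // p μ}) → ↥(wt T hζ.pow_eq_one μ.1)) :=
    { toFun := fun y μ => ⟨proj T hζ.pow_eq_one μ.1 y.1, proj_mem T hζ hmul _ _⟩
      map_add' := fun a b => funext fun μ => Subtype.ext (map_add _ a.1 b.1)
      map_smul' := fun c a => funext fun μ => Subtype.ext (map_smul _ c a.1)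
      invFun := fun f => ⟨∑ μ, (f μ : V), End.mem_eigenspace_iff.2 (by
        rw [one_smul, map_sum]
        refine Finset.sum_congr rfl fun μ _ => ?_
        rw [(mem_wt T).1 (f μ).2 w, hp μ.2, one_smul])⟩
      left_inv := fun y => Subtype.ext (by
        show (∑ μ : {μ // p μ}, proj T hζ.pow_eq_one μ.1 y.1) = y.1
        rw [← Finset.sum_subtype (Finset.univ.filter p) (fun μ => by simp)
          (fun μ => proj T hζ.pow_eq_one μ y.1)]
        conv_rhs => rw [← sum_proj T hζ h0 y.1]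
        exact Finset.sum_subset (Finset.subset_univ _) fun μ _ hμ =>
          hout y.1 (hfix y) μ fun h => hμ (Finset.mem_filter.2 ⟨Finset.mem_univ _, h⟩))
      right_inv := fun f => funext fun ν => Subtype.ext (by
        show proj T hζ.pow_eq_one ν.1 (∑ μ, (f μ : V)) = (f ν : V)
        rw [map_sum, Finset.sum_eq_single ν]
        · rw [proj_of_mem T hζ (f ν).2, if_pos rfl]
        · intro μ _ hne
          rw [proj_of_mem T hζ (f μ).2, if_neg fun h => hne (Subtype.ext h.symm)]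
        · exact fun h => absurd (Finset.mem_univ _) h) }
  rw [e.finrank_eq, Module.finrank_pi_fintype]
  exact (Finset.sum_subtype (Finset.univ.filter p) (fun μ => by simp)
    (fun μ => finrank k ↥(wt T hζ.pow_eq_one μ))).symm

/-- Twisting maps carry weight spaces into weight spaces. -/
theorem map_mem_wt {hζ : ζ ^ 3 = 1} {L : End k V} {φ : Exp d → Exp d} (hφ : Function.Surjective φ)
    (hL : ∀ v, L * T v = T (φ v) * L) {μ μ' : Exp d}
    (hμ : ∀ v, ∑ i, μ' i * φ v i = ∑ i, μ i * v i) {x : V} (hx : x ∈ wt T hζ μ) :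
    L x ∈ wt T hζ μ' := by
  rw [mem_wt] at hx ⊢
  intro w
  obtain ⟨v, rfl⟩ := hφ w
  rw [← End.mul_apply, ← hL, End.mul_apply, hx, map_smul, chi_apply, chi_apply, hμ]

theorem finrank_wt_le {hζ : ζ ^ 3 = 1} {L : End k V} (hi : Function.Injective L)
    {φ : Exp d → Exp d} (hφ : Function.Surjective φ)
    (hL : ∀ v, L * T v = T (φ v) * L) {μ μ' : Exp d}
    (hμ : ∀ v, ∑ i, μ' i * φ v i = ∑ i, μ i * v i) :
    finrank k ↥(wt T hζ μ) ≤ finrank k ↥(wt T hζ μ') :=
  LinearMap.finrank_le_finrank_of_injective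
    (f := L.restrict fun _ hx => map_mem_wt T hφ hL hμ hx) fun a b h =>
      Subtype.ext (hi (congrArg Subtype.val h))

/-- Two commuting elements of order dividing three on a space of dimension at most three which are
permuted with one inversion are trivial. -/
theorem eq_one_of_small (hζ : IsPrimitiveRoot ζ 3) (U : Exp 2 → End k V)
    (hmul : ∀ a b, U (a + b) = U a * U b) (h0 : U 0 = 1) {L : End k V} (hi : Function.Injective L)
    (hL : ∀ v : Exp 2, L * U v = U (![-v 1, v 0]) * L) (hdim : finrank k V ≤ 3) (v : Exp 2) :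
    U v = 1 := by
  classical
  have hsurj : Function.Surjective fun v : Exp 2 => (![-v 1, v 0] : Exp 2) :=
    fun w => ⟨![w 1, -w 0], by funext i; fin_cases i <;> simp⟩
  have key : ∀ μ : Exp 2, finrank k ↥(wt U hζ.pow_eq_one μ) ≤
      finrank k ↥(wt U hζ.pow_eq_one ![-μ 1, μ 0]) := fun μ =>
    finrank_wt_le U hi hsurj hL fun v => by
      simp only [Fin.sum_univ_two, Matrix.cons_val_zero, Matrix.cons_val_one]
      ring
  have hsum := finrank_eq_sum U hζ hmul h0
  have hzero : ∀ μ : Exp 2, μ ≠ 0 → finrank k ↥(wt U hζ.pow_eq_one μ) = 0 := by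
    intro μ hμ
    by_contra hne
    set f : Exp 2 → Exp 2 := fun μ => ![-μ 1, μ 0] with hf
    have h1 := key μ
    have h2 := key (f μ)
    have h3 := key (f (f μ))
    have hd : ∀ μ : Exp 2, μ ≠ 0 → μ ≠ f μ ∧ μ ≠ f (f μ) ∧ μ ≠ f (f (f μ)) ∧ f μ ≠ f (f μ) ∧
        f μ ≠ f (f (f μ)) ∧ f (f μ) ≠ f (f (f μ)) := by decide +kernel
    obtain ⟨n1, n2, n3, n4, n5, n6⟩ := hd μ hμ
    have hle : ∑ x ∈ ({μ, f μ, f (f μ), f (f (f μ))} : Finset (Exp 2)),
        finrank k ↥(wt U hζ.pow_eq_one x) ≤ 3 := (Finset.sum_le_univ_sum_of_nonneg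
      (fun _ => Nat.zero_le _)).trans (hsum ▸ hdim)
    rw [Finset.sum_insert (by simp [n1, n2, n3]), Finset.sum_insert (by simp [n4, n5]),
      Finset.sum_insert (by simp [n6]), Finset.sum_singleton] at hle
    change finrank k ↥(wt U hζ.pow_eq_one μ) ≤ finrank k ↥(wt U hζ.pow_eq_one (f μ)) at h1
    change finrank k ↥(wt U hζ.pow_eq_one (f μ)) ≤ finrank k ↥(wt U hζ.pow_eq_one (f (f μ))) at h2
    change finrank k ↥(wt U hζ.pow_eq_one (f (f μ))) ≤ finrank k ↥(wt U hζ.pow_eq_one (f (f (f μ)))) at h3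
    omega
  refine LinearMap.ext fun x => ?_
  conv_lhs => rw [← sum_proj U hζ h0 x]
  conv_rhs => rw [End.one_apply, ← sum_proj U hζ h0 x]
  rw [map_sum]
  refine Finset.sum_congr rfl fun μ _ => ?_
  by_cases h : μ = 0
  · rw [(mem_wt U).1 (proj_mem U hζ hmul μ x) v, h]
    simp [chi_apply]
  · have e : (⟨_, proj_mem U hζ hmul μ x⟩ : ↥(wt U hζ.pow_eq_one μ)) = 0 :=
      finrank_zero_iff_forall_zero.1 (hzero μ h) _
    rw [show proj U hζ.pow_eq_one μ x = 0 from congrArg Subtype.val e, map_zero]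

end CfsgLib.E8Alt74
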