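import Mathlib
import Cfsg.Agent.E8AltSection74.WeightSpaces

/-!
Monomial permutations of six blocks of three points, as even permutations of eighteen points.
-/

set_option autoImplicit false
set_option maxRecDepth 10000

namespace CfsgLib.E8Alt74

open Equiv

/-- Six blocks of three points. -/
abbrev Pts := Fin 6 × ZMod 3

/-- The translations of the blocks. -/
def transBlock (v : Exp 6) : Perm Pts where
  toFun x := (x.1, x.2 + v x.1)
  invFun x := (x.1, x.2 - v x.1)
  left_inv x := Prod.ext rfl (add_sub_cancel_right x.2 (v x.1))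
  right_inv x := Prod.ext rfl (sub_add_cancel x.2 (v x.1))

theorem unit_sq : ∀ a : (ZMod 3)ˣ, (a : ZMod 3) * a = 1 := by decide +kernel

/-- Block permutations with signs. -/
def monoBlock (σ : Perm (Fin 6)) (s : Fin 6 → (ZMod 3)ˣ) : Perm Pts where
  toFun x := (σ x.1, (s x.1 : ZMod 3) * x.2)
  invFun x := (σ.symm x.1, (s (σ.symm x.1) : ZMod 3) * x.2)
  left_inv x := by simp only [Equiv.symm_apply_apply, ← mul_assoc, unit_sq, one_mul]
  right_inv x := by simp only [Equiv.apply_symm_apply, ← mul_assoc, unit_sq, one_mul]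

/-- The action of a monomial permutation on exponents. -/
def conjExp (σ : Perm (Fin 6)) (s : Fin 6 → (ZMod 3)ˣ) (v : Exp 6) : Exp 6 :=
  fun i => (s (σ.symm i) : ZMod 3) * v (σ.symm i)

theorem monoBlock_mul_transBlock (σ : Perm (Fin 6)) (s : Fin 6 → (ZMod 3)ˣ) (v : Exp 6) :
    monoBlock σ s * transBlock v = transBlock (conjExp σ s v) * monoBlock σ s := by
  ext x <;> simp [monoBlock, transBlock, conjExp, mul_add]

theorem monoBlock_mul (σ τ : Perm (Fin 6)) (s u : Fin 6 → (ZMod 3)ˣ) :
    monoBlock σ s * monoBlock τ u = monoBlock (σ * τ) fun i => s (τ i) * u i := by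
  ext x <;> simp [monoBlock, mul_assoc]

theorem conjExp_mul (σ τ : Perm (Fin 6)) (s u : Fin 6 → (ZMod 3)ˣ) (v : Exp 6) :
    conjExp σ s (conjExp τ u v) = conjExp (σ * τ) (fun i => s (τ i) * u i) v := by
  funext i
  simp [conjExp, ← mul_assoc, Equiv.Perm.mul_def]

theorem conjExp_surjective (σ : Perm (Fin 6)) (s : Fin 6 → (ZMod 3)ˣ) :
    Function.Surjective (conjExp σ s) := fun w => ⟨fun i => (s i : ZMod 3) * w (σ i), by
  funext i
  simp only [conjExp, Equiv.apply_symm_apply, ← mul_assoc, unit_sq, one_mul]⟩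

/-- The action preserves the pairing. -/
theorem pair_conjExp (σ : Perm (Fin 6)) (s : Fin 6 → (ZMod 3)ˣ) (μ v : Exp 6) :
    ∑ i, conjExp σ s μ i * conjExp σ s v i = ∑ i, μ i * v i := by
  refine (Equiv.sum_comp σ _).symm.trans (Finset.sum_congr rfl fun i _ => ?_)
  simp only [conjExp, Equiv.symm_apply_apply]
  linear_combination (μ i * v i) * unit_sq (s i)

/-- The eighteen points. -/
def toEighteen : Perm Pts →* Perm (Fin 18) :=
  (Equiv.permCongrHom ((finProdFinEquiv : Fin 6 × Fin 3 ≃ Fin (6 * 3)) :
    Fin 6 × ZMod 3 ≃ Fin 18)).toMonoidHom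

theorem toEighteen_injective : Function.Injective toEighteen := MulEquiv.injective _

theorem transBlock_add (a b : Exp 6) : transBlock (a + b) = transBlock a * transBlock b := by
  ext x <;> simp [transBlock]
  abel

theorem transBlock_zero : transBlock 0 = 1 := by ext x <;> simp [transBlock]

theorem transBlock_injective : Function.Injective transBlock := fun a b h => funext fun i => by
  simpa [transBlock] using congrArg Prod.snd (DFunLike.congr_fun h (i, 0))

theorem sign_transBlock (v : Exp 6) : Perm.sign (toEighteen (transBlock v)) = 1 := by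
  have h : toEighteen (transBlock v) ^ 3 = 1 := by
    rw [← map_pow, pow_succ, pow_two, ← transBlock_add, ← transBlock_add,
      show v + v + v = 0 from funext fun i => (show ∀ a : ZMod 3, a + a + a = 0 by decide) (v i),
      transBlock_zero, map_one]
  have h2 := congrArg Perm.sign h
  rw [map_pow, map_one] at h2
  exact (show ∀ a : ℤˣ, a ^ 3 = 1 → a = 1 by decide) _ h2

/-- The translations as even permutations of eighteen points. -/
def transAlt : Multiplicative (Exp 6) →* ↥(alternatingGroup (Fin 18)) where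
  toFun v := ⟨toEighteen (transBlock v.toAdd), Perm.mem_alternatingGroup.2 (sign_transBlock _)⟩
  map_one' := Subtype.ext (by simp [transBlock_zero])
  map_mul' a b := Subtype.ext (by simp [transBlock_add])

theorem transAlt_injective : Function.Injective transAlt := fun _ _ h =>
  Multiplicative.toAdd.injective (transBlock_injective (toEighteen_injective (congrArg Subtype.val h)))

/-- The two block cycles. -/
def cyc0 : Perm (Fin 6) := ⟨![1, 2, 0, 3, 4, 5], ![2, 0, 1, 3, 4, 5], by decide, by decide⟩

/-- The second block cycle. -/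
def cyc1 : Perm (Fin 6) := ⟨![0, 1, 2, 4, 5, 3], ![0, 1, 2, 5, 3, 4], by decide, by decide⟩

/-- The exchange of the two block cycles with one inversion. -/
def gam : Perm (Fin 6) := ⟨![3, 4, 5, 1, 0, 2], ![4, 3, 5, 0, 1, 2], by decide, by decide⟩

/-- Block cycles. -/
def cycPerm (b : Exp 2) : Perm (Fin 6) := cyc0 ^ (b 0).val * cyc1 ^ (b 1).val

theorem cycPerm_add : ∀ a b : Exp 2, cycPerm (a + b) = cycPerm a * cycPerm b := by decide +kernel

theorem cycPerm_gam : ∀ b : Exp 2, gam * cycPerm b * gam⁻¹ = cycPerm ![-b 1, b 0] := by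
  decide +kernel

theorem sign_cycPerm : ∀ b : Exp 2,
    Perm.sign (toEighteen (monoBlock (cycPerm b) fun _ => 1)) = 1 := by decide +kernel

theorem sign_gam : Perm.sign (toEighteen (monoBlock gam fun _ => 1)) = 1 := by decide +kernel

/-- The block cycles as even permutations of eighteen points. -/
def cycAlt : Multiplicative (Exp 2) →* ↥(alternatingGroup (Fin 18)) where
  toFun b := ⟨toEighteen (monoBlock (cycPerm b.toAdd) fun _ => 1),
    Perm.mem_alternatingGroup.2 (sign_cycPerm _)⟩
  map_one' := Subtype.ext (by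
    have h : monoBlock (cycPerm 0) (fun _ => 1) = 1 := by
      ext x <;> simp [monoBlock, cycPerm]
    simp [h])
  map_mul' a b := Subtype.ext (by
    simp only [toAdd_mul, cycPerm_add, Subgroup.coe_mul, ← map_mul]
    rw [monoBlock_mul]
    simp)

/-- A representative of the weights of given support. -/
def rep (k : ℕ) : Exp 6 := fun i => if i.val < k then 1 else 0

/-- The size of the support. -/
def supp (μ : Exp 6) : ℕ := (Finset.univ.filter fun i => μ i ≠ 0).card

theorem supp_rep : ∀ k < 7, supp (rep k) = k := by decide +kernel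

theorem supp_lt (μ : Exp 6) : supp μ < 7 :=
  Nat.lt_succ_of_le ((Finset.card_le_univ _).trans (le_of_eq (Fintype.card_fin 6)))

/-- The sign of a nonzero residue. -/
def sgn3 (a : ZMod 3) : (ZMod 3)ˣ := if a = 2 then -1 else 1

theorem sgn3_spec : ∀ a : ZMod 3, a ≠ 0 → (sgn3 a : ZMod 3) = a := by decide

/-- An odd monomial permutation fixing a representative. -/
def oddFix (k : ℕ) : Perm (Fin 6) × (Fin 6 → (ZMod 3)ˣ) :=
  if k < 6 then (1, fun i => if i = 5 then -1 else 1) else (Equiv.swap 3 4, fun _ => 1)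

theorem oddFix_spec : ∀ k < 7, Perm.sign (toEighteen (monoBlock (oddFix k).1 (oddFix k).2)) = -1 ∧
    conjExp (oddFix k).1 (oddFix k).2 (rep k) = rep k := by decide +kernel

/-- Weights with equal support are related by an even monomial permutation. -/
theorem exists_mono (μ : Exp 6) : ∃ σ s, Perm.sign (toEighteen (monoBlock σ s)) = 1 ∧
    conjExp σ s (rep (supp μ)) = μ := by
  classical
  set k := supp μ with hk
  have hk7 : k < 7 := supp_lt μ
  have hcard : Fintype.card {i : Fin 6 // i.val < k} = Fintype.card {i : Fin 6 // μ i ≠ 0} := by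
    have e1 := supp_rep k hk7
    rw [Fintype.card_subtype, Fintype.card_subtype]
    refine Eq.trans (?_ : _ = k) hk
    conv_rhs => rw [← e1, supp]
    congr 1
    ext i
    simp [rep]
  let σ : Perm (Fin 6) := (Fintype.equivOfCardEq hcard).extendSubtype
  have h1 : conjExp σ (fun i => sgn3 (μ (σ i))) (rep k) = μ := by
    funext j
    obtain ⟨i, rfl⟩ := σ.surjective j
    simp only [conjExp, Equiv.symm_apply_apply, rep]
    by_cases h : i.val < k
    · have h2 := Equiv.extendSubtype_mem (Fintype.equivOfCardEq hcard) i h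
      rw [if_pos h, mul_one, sgn3_spec _ h2]
    · have h2 := Equiv.extendSubtype_not_mem (Fintype.equivOfCardEq hcard) i h
      rw [if_neg h, mul_zero]
      exact (not_not.1 h2).symm
  rcases Int.units_eq_one_or (Perm.sign (toEighteen (monoBlock σ fun i => sgn3 (μ (σ i))))) with
    hs | hs
  · exact ⟨σ, _, hs, h1⟩
  · obtain ⟨h3, h4⟩ := oddFix_spec k hk7
    refine ⟨σ * (oddFix k).1, fun i => sgn3 (μ (σ ((oddFix k).1 i))) * (oddFix k).2 i, ?_, ?_⟩
    · rw [← monoBlock_mul σ (oddFix k).1 (fun i => sgn3 (μ (σ i))) (oddFix k).2, map_mul, map_mul,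
        hs, h3]
      rfl
    · rw [← conjExp_mul σ (oddFix k).1 (fun i => sgn3 (μ (σ i))) (oddFix k).2, h4, h1]

/-- Full weights fixed by the first block cycle. -/
def IsFull (μ : Exp 6) : Prop := (∀ i, μ i ≠ 0) ∧ μ 1 = μ 0 ∧ μ 2 = μ 0

instance : DecidablePred IsFull := fun μ => inferInstanceAs (Decidable (_ ∧ _ ∧ _))

/-- Such weights are related by an even monomial permutation commuting with the first cycle. -/
theorem exists_mono_full {μ : Exp 6} (h : IsFull μ) : ∃ σ s,
    Perm.sign (toEighteen (monoBlock σ s)) = 1 ∧ conjExp σ s (rep 6) = μ ∧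
    monoBlock σ s * monoBlock cyc0 (fun _ => 1) = monoBlock cyc0 (fun _ => 1) * monoBlock σ s := by
  set s : Fin 6 → (ZMod 3)ˣ := fun i => sgn3 (μ i) with hs0
  have hsc : ∀ i, s (cyc0 i) = s i := by
    intro i
    fin_cases i <;> simp [s, cyc0, h.2.1, h.2.2]
  have h1 : conjExp 1 s (rep 6) = μ := by
    funext i
    show (sgn3 (μ i) : ZMod 3) * (if i.val < 6 then 1 else 0) = μ i
    rw [sgn3_spec _ (h.1 i), if_pos i.isLt, mul_one]
  have hcomm : monoBlock 1 s * monoBlock cyc0 (fun _ => 1) =
      monoBlock cyc0 (fun _ => 1) * monoBlock 1 s := by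
    rw [monoBlock_mul, monoBlock_mul]
    simp [hsc]
  rcases Int.units_eq_one_or (Perm.sign (toEighteen (monoBlock 1 s))) with hs | hs
  · exact ⟨1, s, hs, h1, hcomm⟩
  · obtain ⟨h3, h4⟩ := oddFix_spec 6 (by norm_num)
    have hfix : monoBlock (oddFix 6).1 (oddFix 6).2 * monoBlock cyc0 (fun _ => 1) =
        monoBlock cyc0 (fun _ => 1) * monoBlock (oddFix 6).1 (oddFix 6).2 := by decide +kernel
    refine ⟨1 * (oddFix 6).1, fun i => s ((oddFix 6).1 i) * (oddFix 6).2 i, ?_, ?_, ?_⟩
    · rw [← monoBlock_mul, map_mul, map_mul, hs, h3]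
      rfl
    · rw [← conjExp_mul, h4, h1]
    · rw [← monoBlock_mul, mul_assoc, hfix, ← mul_assoc, hcomm, mul_assoc]

end CfsgLib.E8Alt74
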