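import Cfsg.Agent.E8AltSection74.Sections
import Cfsg.Agent.E8AltSection74.Blocks

/-!
No minimal extension of the alternating group of degree eighteen has a representation of dimension 248 in
which the elements over products of two or three three-cycles have the fixed spaces of torus elements of
order three of E8: the weights of six commuting three-cycles are forced, and a block three-cycle then
fixes too much.
-/

set_option autoImplicit false

namespace CfsgLib.E8Alt74

open Module Equiv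

/-- The counts of weights of each support size satisfying a condition. -/
theorem sum_by_supp (p : Exp 6 → Prop) [DecidablePred p] (f : ℕ → ℕ) :
    ∑ μ with p μ, f (supp μ) =
      ∑ j ∈ Finset.range 7, (Finset.univ.filter fun μ => p μ ∧ supp μ = j).card * f j := by
  rw [← Finset.sum_fiberwise_of_maps_to (g := supp) (t := Finset.range 7)
    (fun μ _ => Finset.mem_range.2 (supp_lt μ))]
  refine Finset.sum_congr rfl fun j _ => ?_
  rw [Finset.filter_filter, Finset.sum_congr rfl (fun μ hμ => by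
    rw [(Finset.mem_filter.1 hμ).2.2]), Finset.sum_const, smul_eq_mul]

/-- The first test exponent. -/
def v₂ : Exp 6 := ![1, 1, 0, 0, 0, 0]

/-- The second test exponent. -/
def v₃ : Exp 6 := ![1, 1, 1, 0, 0, 0]

/-- A key separating the rotations of the first three coordinates. -/
def key3 (μ : Exp 6) : ℕ := (μ 0).val * 9 + (μ 1).val * 3 + (μ 2).val

/-- The rotation of weights. -/
def rot (μ : Exp 6) : Exp 6 := conjExp cyc0 (fun _ => 1) μ

/-- The least weight in an orbit of length three. -/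
def IsLeast3 (μ : Exp 6) : Prop := key3 μ < key3 (rot μ) ∧ key3 μ < key3 (rot (rot μ))

instance : DecidablePred IsLeast3 := fun μ => inferInstanceAs (Decidable (_ ∧ _))

theorem count_all : (List.range 7).map (fun j => (Finset.univ.filter fun μ : Exp 6 =>
    True ∧ supp μ = j).card) = [1, 12, 60, 160, 240, 192, 64] := by decide +kernel

theorem count_two : (List.range 7).map (fun j => (Finset.univ.filter fun μ : Exp 6 =>
    ∑ i, μ i * v₂ i = 0 ∧ supp μ = j).card) = [1, 8, 26, 48, 64, 64, 32] := by decide +kernel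

theorem count_three : (List.range 7).map (fun j => (Finset.univ.filter fun μ : Exp 6 =>
    ∑ i, μ i * v₃ i = 0 ∧ supp μ = j).card) = [1, 6, 18, 46, 84, 72, 16] := by decide +kernel

theorem count_low : (List.range 7).map (fun j => (Finset.univ.filter fun μ : Exp 6 =>
    (IsLeast3 μ ∨ IsFull μ) ∧ supp μ = j).card) = [0, 2, 16, 50, 76, 56, 32] := by decide +kernel

theorem rot_facts : ∀ μ : Exp 6, (IsLeast3 μ → rot μ ≠ μ ∧ rot (rot μ) ≠ μ ∧
    (∀ ν, ν = rot μ ∨ ν = rot (rot μ) → ¬ IsLeast3 ν ∧ ¬ IsFull ν)) ∧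
    (IsFull μ → supp μ = 6) := by
  intro μ
  have h1 : ∀ μ : Exp 6, IsLeast3 μ → rot μ ≠ μ ∧ rot (rot μ) ≠ μ ∧
      ¬ IsLeast3 (rot μ) ∧ ¬ IsFull (rot μ) ∧ ¬ IsLeast3 (rot (rot μ)) ∧ ¬ IsFull (rot (rot μ)) := by
    decide +kernel
  have h2 : ∀ μ : Exp 6, IsFull μ → supp μ = 6 := by decide +kernel
  refine ⟨fun h => ?_, h2 μ⟩
  obtain ⟨a, b, c, d, e, f⟩ := h1 μ h
  exact ⟨a, b, fun ν hν => by rcases hν with rfl | rfl <;> exact ⟨by assumption, by assumption⟩⟩

theorem support_test : (Perm.support (toEighteen (transBlock v₂))).card = 6 ∧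
    (Perm.support (toEighteen (transBlock v₃))).card = 9 := by decide +kernel

/-- The permutation carrying three translated blocks to the block cycle. -/
def qConj : Perm Pts :=
  Equiv.swap ((0 : Fin 6), (1 : ZMod 3)) (1, 0) * Equiv.swap ((0 : Fin 6), (2 : ZMod 3)) (2, 0) *
    Equiv.swap ((1 : Fin 6), (2 : ZMod 3)) (2, 1) * monoBlock (Equiv.swap 3 4) fun _ => 1

theorem qConj_spec : Perm.sign (toEighteen qConj) = 1 ∧
    qConj * transBlock v₃ * qConj⁻¹ = monoBlock cyc0 fun _ => 1 := by decide +kernel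

/-- The block cycle element. -/
def cyc0Exp : Multiplicative (Exp 2) := Multiplicative.ofAdd ![1, 0]

theorem three_nsmul_zero : ∀ a : ZMod 3, (3 : ℕ) • a = 0 := by decide

theorem cycPerm_cyc0 : cycPerm ![1, 0] = cyc0 := by decide +kernel

theorem cycAlt_conj_transAlt (b : Multiplicative (Exp 2)) (v : Multiplicative (Exp 6)) :
    cycAlt b * transAlt v * (cycAlt b)⁻¹ =
      transAlt (Multiplicative.ofAdd (conjExp (cycPerm b.toAdd) (fun _ => 1) v.toAdd)) := by
  rw [mul_inv_eq_iff_eq_mul]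
  refine Subtype.ext ?_
  simp [cycAlt, transAlt, ← map_mul, monoBlock_mul_transBlock]

/-- The total bounds the last multiplicity. -/
theorem arith_six {a b c d e f g : ℕ}
    (h : 1 * a + 12 * b + 60 * c + 160 * d + 240 * e + 192 * f + 64 * g = 248) : g ≤ 3 := by omega

/-- The final contradiction. -/
theorem arith_final {a b c d e f g f₂ f₃ l : ℕ}
    (ht : 1 * a + 12 * b + 60 * c + 160 * d + 240 * e + 192 * f + 64 * g = 248)
    (h2 : f₂ = 1 * a + 8 * b + 26 * c + 48 * d + 64 * e + 64 * f + 32 * g)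
    (h3 : f₃ = 1 * a + 6 * b + 18 * c + 46 * d + 84 * e + 72 * f + 16 * g)
    (hl : 0 * a + 2 * b + 16 * c + 50 * d + 76 * e + 56 * f + 32 * g ≤ l) (hle : l ≤ f₃)
    (f2 : f₂ = 80 ∨ f₂ = 86 ∨ f₂ = 92 ∨ f₂ = 134) (f3 : f₃ = 80 ∨ f₃ = 86 ∨ f₃ = 92 ∨ f₃ = 134) :
    False := by
  have hd : d ≤ 1 := by omega
  have he : e ≤ 1 := by omega
  have hf : f ≤ 1 := by omega
  have hg : g ≤ 3 := by omega
  interval_cases d <;> interval_cases e <;> interval_cases f <;> interval_cases g <;> omega

variable {k V : Type*} [Field k] [AddCommGroup V] [Module k V] [FiniteDimensional k V] {ζ : k}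
  {H : Type*} [Group H] [Finite H]

/-- A representation evaluated at a homomorphic image of exponents. -/
def opOf (ρ : Representation k H V) {d : ℕ} (e : Multiplicative (Exp d) →* H) (v : Exp d) : End k V :=
  ρ (e (Multiplicative.ofAdd v))

theorem opOf_add (ρ : Representation k H V) {d : ℕ} (e : Multiplicative (Exp d) →* H) (a b : Exp d) :
    opOf ρ e (a + b) = opOf ρ e a * opOf ρ e b := by
  simp [opOf]

theorem opOf_zero (ρ : Representation k H V) {d : ℕ} (e : Multiplicative (Exp d) →* H) :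
    opOf ρ e 0 = 1 := by
  simp [opOf]

theorem rho_injective (ρ : Representation k H V) (h : H) : Function.Injective (ρ h) :=
  Function.LeftInverse.injective (g := ρ h⁻¹) fun x => by
    rw [← End.mul_apply, ← map_mul, inv_mul_cancel, map_one, End.one_apply]

theorem opOf_intertwine (ρ : Representation k H V) {d : ℕ} (e : Multiplicative (Exp d) →* H) {h : H}
    {φ : Exp d → Exp d} (he : ∀ v, h * e (Multiplicative.ofAdd v) * h⁻¹ = e (Multiplicative.ofAdd (φ v)))
    (v : Exp d) : ρ h * opOf ρ e v = opOf ρ e (φ v) * ρ h := by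
  rw [opOf, opOf, ← map_mul, ← map_mul, ← he, inv_mul_cancel_right]

theorem fix_le_of_conj (ρ : Representation k H V) {g x y : H} (hg : g * x * g⁻¹ = y) :
    finrank k ↥(End.eigenspace (ρ y) 1) ≤ finrank k ↥(End.eigenspace (ρ x) 1) := by
  have hmap : ∀ v ∈ End.eigenspace (ρ y) 1, ρ g⁻¹ v ∈ End.eigenspace (ρ x) 1 := by
    intro v hv
    rw [End.mem_eigenspace_iff, one_smul] at hv ⊢
    rw [← End.mul_apply, ← map_mul, show x * g⁻¹ = g⁻¹ * y from by rw [← hg]; group, map_mul,
      End.mul_apply, hv]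
  exact LinearMap.finrank_le_finrank_of_injective (f := (ρ g⁻¹).restrict hmap) fun a b h =>
    Subtype.ext (rho_injective ρ g⁻¹ (congrArg Subtype.val h))

variable {π : H →* ↥(alternatingGroup (Fin 18))} (hπ : Function.Surjective π)
  (hK : ¬ 3 ∣ Nat.card ↥π.ker)
include hπ hK

/-- Monomial permutations lift to elements moving weights. -/
theorem exists_mono_lift {εE : Multiplicative (Exp 6) →* H} (hE : ∀ v, π (εE v) = transAlt v)
    (σ : Perm (Fin 6)) (s : Fin 6 → (ZMod 3)ˣ) (hs : Perm.sign (toEighteen (monoBlock σ s)) = 1) :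
    ∃ h, ∀ v, h * εE (Multiplicative.ofAdd v) * h⁻¹ = εE (Multiplicative.ofAdd (conjExp σ s v)) := by
  haveI : Fact (Nat.Prime 3) := ⟨by norm_num⟩
  obtain ⟨h, -, hh⟩ := exists_conj_section π hπ hK transAlt_injective
    (IsPGroup.of_card (n := 6) (by simp)) hE hE
    ⟨toEighteen (monoBlock σ s), Perm.mem_alternatingGroup.2 hs⟩
    (fun v => Multiplicative.ofAdd (conjExp σ s v.toAdd)) (fun v => by
      rw [mul_inv_eq_iff_eq_mul]
      refine Subtype.ext ?_
      simp [transAlt, ← map_mul, monoBlock_mul_transBlock])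
  exact ⟨h, fun v => hh (Multiplicative.ofAdd v)⟩

/-- The dimension of a weight space depends only on the support. -/
theorem finrank_wt_supp (ρ : Representation k H V) (hζ : ζ ^ 3 = 1) {εE : Multiplicative (Exp 6) →* H}
    (hE : ∀ v, π (εE v) = transAlt v) (μ : Exp 6) :
    finrank k ↥(wt (opOf ρ εE) hζ μ) = finrank k ↥(wt (opOf ρ εE) hζ (rep (supp μ))) := by
  obtain ⟨σ, s, hs, hμ⟩ := exists_mono μ
  obtain ⟨h, hh⟩ := exists_mono_lift hπ hK hE σ s hs
  refine le_antisymm ?_ ?_
  · refine finrank_wt_le (opOf ρ εE) (rho_injective ρ h⁻¹)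
      (φ := Function.surjInv (conjExp_surjective σ s))
      (fun w => ⟨conjExp σ s w, ?_⟩) (opOf_intertwine ρ εE fun v => ?_) fun v => ?_
    · refine (Finite.injective_iff_surjective.2 (conjExp_surjective σ s)) ?_
      rw [Function.surjInv_eq (conjExp_surjective σ s)]
    · conv_lhs => rw [← Function.surjInv_eq (conjExp_surjective σ s) v, ← hh]
      group
    · conv_rhs => rw [← hμ, ← Function.surjInv_eq (conjExp_surjective σ s) v]
      rw [pair_conjExp]
  · exact finrank_wt_le (opOf ρ εE) (rho_injective ρ h) (conjExp_surjective σ s)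
      (opOf_intertwine ρ εE hh) fun v => by
      have e := pair_conjExp σ s (rep (supp μ)) v
      rwa [hμ] at e

set_option maxHeartbeats 1000000 in
set_option maxRecDepth 10000 in
/-- No such representation. -/
theorem no_eighteen (hdim : finrank k V = 248) (hζ : IsPrimitiveRoot ζ 3) (ρ : Representation k H V)
    (hspec : ∀ x : H, x ^ 3 = 1 →
      ((π x : Perm (Fin 18)).support.card = 6 ∨ (π x : Perm (Fin 18)).support.card = 9) →
      finrank k ↥(End.eigenspace (ρ x) 1) ∈ ({80, 86, 92, 134} : Finset ℕ)) : False := by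
  classical
  haveI : Fact (Nat.Prime 3) := ⟨by norm_num⟩
  -- the group generated by the translations and the two block cycles, and its lift
  set L : Subgroup ↥(alternatingGroup (Fin 18)) := transAlt.range ⊔ cycAlt.range with hLdef
  have hnormal : cycAlt.range ≤ Subgroup.normalizer
      (transAlt.range : Set ↥(alternatingGroup (Fin 18))) := by
    rintro _ ⟨b, rfl⟩
    have key : ∀ (b : Multiplicative (Exp 2)), ∀ x ∈ transAlt.range,
        cycAlt b * x * (cycAlt b)⁻¹ ∈ transAlt.range := by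
      rintro b _ ⟨v, rfl⟩
      exact ⟨_, (cycAlt_conj_transAlt b v).symm⟩
    refine Subgroup.mem_normalizer_iff.2 fun x => ⟨key b x, fun hx => ?_⟩
    have h := key b⁻¹ _ hx
    rw [map_inv] at h
    simpa [mul_assoc] using h
  have hL : IsPGroup 3 ↥L := IsPGroup.to_sup_of_normal_left'
    ((IsPGroup.of_card (n := 6) (by simp) : IsPGroup 3 (Multiplicative (Exp 6))).of_surjective _
      transAlt.rangeRestrict_surjective)
    ((IsPGroup.of_card (n := 2) (by simp) : IsPGroup 3 (Multiplicative (Exp 2))).of_surjective _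
      cycAlt.rangeRestrict_surjective) hnormal
  obtain ⟨s, hs⟩ := exists_section π hπ hK (ι := L.subtype) L.subtype_injective hL
  set tL : Multiplicative (Exp 6) →* ↥L := transAlt.codRestrict L fun v =>
    Subgroup.mem_sup_left ⟨v, rfl⟩ with htL
  set cL : Multiplicative (Exp 2) →* ↥L := cycAlt.codRestrict L fun v =>
    Subgroup.mem_sup_right ⟨v, rfl⟩ with hcL
  set εE := s.comp tL with hεE
  set εC := s.comp cL with hεC
  have hE : ∀ v, π (εE v) = transAlt v := fun v => hs (tL v)
  set T := opOf ρ εE with hT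
  have h3 : ζ ^ 3 = 1 := hζ.pow_eq_one
  set m : ℕ → ℕ := fun j => finrank k ↥(wt T h3 (rep j)) with hm
  have hwt : ∀ μ, finrank k ↥(wt T h3 μ) = m (supp μ) :=
    fun μ => finrank_wt_supp hπ hK ρ h3 hE μ
  have hsum : ∀ (p : Exp 6 → Prop) [DecidablePred p],
      ∑ μ with p μ, finrank k ↥(wt T h3 μ) =
      ∑ j ∈ Finset.range 7, (Finset.univ.filter fun μ => p μ ∧ supp μ = j).card * m j := fun p _ => by
    rw [Finset.sum_congr rfl fun μ _ => hwt μ, sum_by_supp]
  have hlist : ∀ (c : ℕ → ℕ) (a0 a1 a2 a3 a4 a5 a6 : ℕ),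
      (List.range 7).map c = [a0, a1, a2, a3, a4, a5, a6] →
      ∑ j ∈ Finset.range 7, c j * m j =
        a0 * m 0 + a1 * m 1 + a2 * m 2 + a3 * m 3 + a4 * m 4 + a5 * m 5 + a6 * m 6 := by
    intro c a0 a1 a2 a3 a4 a5 a6 hc
    simp [List.range_succ] at hc
    obtain ⟨r0, r1, r2, r3, r4, r5, r6⟩ := hc
    simp [Finset.sum_range_succ, r0, r1, r2, r3, r4, r5, r6]
  have hmul := opOf_add ρ εE
  have h0 := opOf_zero ρ εE
  have etot := (finrank_eq_sum T hζ hmul h0).symm.trans hdim
  rw [← Finset.filter_true (s := (Finset.univ : Finset (Exp 6))), hsum,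
    hlist _ _ _ _ _ _ _ _ count_all] at etot
  have e2 := finrank_fixed T hζ hmul h0 v₂
  rw [hsum, hlist _ _ _ _ _ _ _ _ count_two] at e2
  have e3 := finrank_fixed T hζ hmul h0 v₃
  rw [hsum, hlist _ _ _ _ _ _ _ _ count_three] at e3
  have hcube : ∀ v : Exp 6, (εE (Multiplicative.ofAdd v)) ^ 3 = 1 := fun v => by
    rw [← map_pow, ← ofAdd_nsmul, show (3 : ℕ) • v = 0 from funext fun i =>
      three_nsmul_zero (v i), ofAdd_zero, map_one]
  have f2 := hspec _ (hcube v₂) (Or.inl (by rw [hE]; exact support_test.1))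
  have f3 := hspec _ (hcube v₃) (Or.inr (by rw [hE]; exact support_test.2))
  -- the block cycle
  set σh := εC cyc0Exp with hσh
  have hcE : ∀ (b : Multiplicative (Exp 2)) (v : Exp 6), εC b * εE (Multiplicative.ofAdd v) * (εC b)⁻¹ =
      εE (Multiplicative.ofAdd (conjExp (cycPerm b.toAdd) (fun _ => 1) v)) := fun b v => by
    rw [hεC, hεE]
    simp only [MonoidHom.comp_apply, ← map_inv, ← map_mul]
    refine congrArg s (Subtype.ext ?_)
    rw [map_inv]
    exact cycAlt_conj_transAlt b (Multiplicative.ofAdd v)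
  have hσ3 : σh ^ 3 = 1 := by
    rw [hσh, ← map_pow, cyc0Exp, ← ofAdd_nsmul, show (3 : ℕ) • (![1, 0] : Exp 2) = 0 from funext fun i =>
      three_nsmul_zero _, ofAdd_zero,
      map_one]
  have hπσ : (π σh : Perm (Fin 18)) = toEighteen (monoBlock cyc0 fun _ => 1) := by
    rw [hσh, hεC, MonoidHom.comp_apply, hs]
    show toEighteen (monoBlock (cycPerm ![1, 0]) fun _ => 1) = _
    rw [cycPerm_cyc0]
  obtain ⟨g, hg⟩ := exists_conj_elem π hπ hK (hcube v₃) hσ3
    (q := ⟨toEighteen qConj, Perm.mem_alternatingGroup.2 qConj_spec.1⟩) (by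
      rw [hE]
      refine Subtype.ext ?_
      rw [hπσ]
      show toEighteen qConj * toEighteen (transBlock v₃) * (toEighteen qConj)⁻¹ = _
      rw [← map_inv, ← map_mul, ← map_mul, qConj_spec.2])
  have hle : finrank k ↥(End.eigenspace (ρ σh) 1) ≤ finrank k ↥(End.eigenspace (T v₃) 1) :=
    fix_le_of_conj ρ hg
  -- the cycle is trivial on full weight spaces
  have hm6 : m 6 ≤ 3 := arith_six etot
  set W := wt T h3 (rep 6) with hW
  have hrep : ∀ b : Exp 2, conjExp (cycPerm b) (fun _ => 1) (rep 6) = rep 6 := by decide +kernel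
  have hWC : ∀ b : Exp 2, ∀ x ∈ W, opOf ρ εC b x ∈ W := fun b x hx =>
    map_mem_wt T (conjExp_surjective (cycPerm b) fun _ => 1)
      (opOf_intertwine ρ εE (hcE (Multiplicative.ofAdd b)))
      (fun v => by conv_lhs => rw [← hrep b]
                   exact pair_conjExp _ _ _ v) hx
  set γ : ↥(alternatingGroup (Fin 18)) :=
    ⟨toEighteen (monoBlock gam fun _ => 1), Perm.mem_alternatingGroup.2 sign_gam⟩ with hγ
  have hγE : ∀ v, γ * transAlt v * γ⁻¹ =
      transAlt (Multiplicative.ofAdd (conjExp gam (fun _ => 1) v.toAdd)) := fun v => by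
    rw [mul_inv_eq_iff_eq_mul]
    refine Subtype.ext ?_
    simp [γ, transAlt, ← map_mul, monoBlock_mul_transBlock]
  have hγC : ∀ b : Exp 2, γ * cycAlt (Multiplicative.ofAdd b) * γ⁻¹ =
      cycAlt (Multiplicative.ofAdd ![-b 1, b 0]) := fun b => by
    rw [mul_inv_eq_iff_eq_mul]
    refine Subtype.ext ?_
    simp only [γ, cycAlt, Subgroup.coe_mul, MonoidHom.coe_mk, OneHom.coe_mk, toAdd_ofAdd, ← map_mul]
    rw [monoBlock_mul, monoBlock_mul, ← cycPerm_gam]
    simp
  have hγL : ∀ l ∈ L, γ * l * γ⁻¹ ∈ L := by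
    intro l hl
    have hle' : L.map (MulAut.conj γ).toMonoidHom ≤ L := by
      rw [hLdef, Subgroup.map_sup]
      refine sup_le_sup ?_ ?_
      · rintro _ ⟨_, ⟨v, rfl⟩, rfl⟩
        exact ⟨_, (hγE v).symm⟩
      · rintro _ ⟨_, ⟨b, rfl⟩, rfl⟩
        exact ⟨_, (hγC b.toAdd).symm⟩
    exact hle' ⟨l, hl, rfl⟩
  obtain ⟨g6, -, hg6⟩ := exists_conj_section π hπ hK L.subtype_injective hL hs hs γ
    (fun l => ⟨γ * l * γ⁻¹, hγL l l.2⟩) fun l => rfl
  have hg6E : ∀ v, g6 * εE (Multiplicative.ofAdd v) * g6⁻¹ =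
      εE (Multiplicative.ofAdd (conjExp gam (fun _ => 1) v)) := fun v =>
    (hg6 (tL (Multiplicative.ofAdd v))).trans (congrArg s (Subtype.ext (hγE (Multiplicative.ofAdd v))))
  have hg6C : ∀ b, g6 * εC (Multiplicative.ofAdd b) * g6⁻¹ =
      εC (Multiplicative.ofAdd ![-b 1, b 0]) := fun b =>
    (hg6 (cL (Multiplicative.ofAdd b))).trans (congrArg s (Subtype.ext (hγC b)))
  have hgamrep : conjExp gam (fun _ => 1) (rep 6) = rep 6 := by decide +kernel
  have hWg : ∀ x ∈ W, ρ g6 x ∈ W := fun x hx =>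
    map_mem_wt T (conjExp_surjective gam fun _ => 1) (opOf_intertwine ρ εE hg6E)
      (fun v => by conv_lhs => rw [← hgamrep]
                   exact pair_conjExp _ _ _ v) hx
  have htriv : ∀ x ∈ W, ρ σh x = x := fun x hx => by
    have h := eq_one_of_small hζ (fun b => (opOf ρ εC b).restrict (hWC b))
      (fun a b => LinearMap.ext fun y => Subtype.ext (by
        show opOf ρ εC (a + b) y.1 = opOf ρ εC a (opOf ρ εC b y.1)
        rw [opOf_add, End.mul_apply]))
      (LinearMap.ext fun y => Subtype.ext (by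
        show opOf ρ εC 0 y.1 = y.1
        rw [opOf_zero, End.one_apply]))
      (L := (ρ g6).restrict hWg) (fun a b h => Subtype.ext (rho_injective ρ g6 (congrArg Subtype.val h)))
      (fun b => LinearMap.ext fun y => Subtype.ext
        (DFunLike.congr_fun (opOf_intertwine ρ εC hg6C b) y.1))
      hm6 ![1, 0]
    exact congrArg Subtype.val (DFunLike.congr_fun h (⟨x, hx⟩ : ↥W))
  have hfull : ∀ μ, IsFull μ → ∀ x ∈ wt T h3 μ, ρ σh x = x := by
    intro μ hμ x hx
    obtain ⟨σ, u, hu, hμu, hcomm⟩ := exists_mono_full hμ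
    set n : ↥(alternatingGroup (Fin 18)) :=
      ⟨toEighteen (monoBlock σ u), Perm.mem_alternatingGroup.2 hu⟩ with hn
    set L' : Subgroup ↥(alternatingGroup (Fin 18)) :=
      transAlt.range ⊔ Subgroup.zpowers (cycAlt cyc0Exp) with hL'def
    have hL'L : L' ≤ L := sup_le le_sup_left
      ((Subgroup.zpowers_le.2 (MonoidHom.mem_range.2 ⟨cyc0Exp, rfl⟩)).trans le_sup_right)
    have hnE : ∀ v, n * transAlt v * n⁻¹ =
        transAlt (Multiplicative.ofAdd (conjExp σ u v.toAdd)) := fun v => by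
      rw [mul_inv_eq_iff_eq_mul]
      refine Subtype.ext ?_
      simp [n, transAlt, ← map_mul, monoBlock_mul_transBlock]
    have hnC : n * cycAlt cyc0Exp * n⁻¹ = cycAlt cyc0Exp := by
      rw [mul_inv_eq_iff_eq_mul]
      refine Subtype.ext ?_
      show toEighteen (monoBlock σ u) * toEighteen (monoBlock (cycPerm ![1, 0]) fun _ => 1) =
        toEighteen (monoBlock (cycPerm ![1, 0]) fun _ => 1) * toEighteen (monoBlock σ u)
      rw [← map_mul, ← map_mul, cycPerm_cyc0, hcomm]
    have hnL : ∀ l ∈ L', n * l * n⁻¹ ∈ L' := by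
      intro l hl
      have hle' : L'.map (MulAut.conj n).toMonoidHom ≤ L' := by
        rw [hL'def, Subgroup.map_sup]
        refine sup_le_sup ?_ ?_
        · rintro _ ⟨_, ⟨v, rfl⟩, rfl⟩
          exact ⟨_, (hnE v).symm⟩
        · rw [MonoidHom.map_zpowers]
          refine Subgroup.zpowers_le.2 ?_
          show n * cycAlt cyc0Exp * n⁻¹ ∈ _
          rw [hnC]
          exact Subgroup.mem_zpowers _
      exact hle' ⟨l, hl, rfl⟩
    obtain ⟨h, -, hh⟩ := exists_conj_section π hπ hK L'.subtype_injective (hL.to_le hL'L)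
      (s := s.comp (Subgroup.inclusion hL'L)) (t := s.comp (Subgroup.inclusion hL'L))
      (fun l => hs _) (fun l => hs _) n (fun l => ⟨n * l * n⁻¹, hnL l l.2⟩) fun l => rfl
    have hhE : ∀ v, h * εE (Multiplicative.ofAdd v) * h⁻¹ =
        εE (Multiplicative.ofAdd (conjExp σ u v)) := fun v =>
      (hh ⟨transAlt (Multiplicative.ofAdd v), Subgroup.mem_sup_left ⟨_, rfl⟩⟩).trans
        (congrArg s (Subtype.ext (hnE (Multiplicative.ofAdd v))))
    have hhC : h * σh * h⁻¹ = σh :=
      (hh ⟨cycAlt cyc0Exp, Subgroup.mem_sup_right (Subgroup.mem_zpowers _)⟩).trans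
        (congrArg s (Subtype.ext hnC))
    have hmem : ∀ y ∈ W, ρ h y ∈ wt T h3 μ := fun y hy =>
      map_mem_wt T (conjExp_surjective σ u) (opOf_intertwine ρ εE hhE)
        (fun v => by rw [← hμu]; exact pair_conjExp σ u _ v) hy
    have hsame : finrank k ↥W = finrank k ↥(wt T h3 μ) := by
      rw [hwt μ, (rot_facts μ).2 hμ]
    have hinj : Function.Injective ((ρ h).restrict hmem) :=
      fun a b e => Subtype.ext (rho_injective ρ h (congrArg Subtype.val e))
    obtain ⟨y, hy⟩ := ((LinearMap.injective_iff_surjective_of_finrank_eq_finrank hsame).1 hinj) ⟨x, hx⟩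
    have hxy : ρ h y.1 = x := congrArg Subtype.val hy
    have hcm : σh * h = h * σh := by
      conv_lhs => rw [← hhC]
      group
    rw [← hxy, ← End.mul_apply, ← map_mul, hcm, map_mul, End.mul_apply, htriv y.1 y.2]
  -- vectors fixed by the cycle
  set S := ρ σh with hS
  have hS3 : S * S * S = 1 := by
    rw [hS, ← map_mul, ← map_mul, ← pow_two, ← pow_succ, hσ3, map_one]
  have hrot : ∀ μ, ∀ x ∈ wt T h3 μ, S x ∈ wt T h3 (rot μ) := fun μ x hx =>
    map_mem_wt T (conjExp_surjective (cycPerm ![1, 0]) fun _ => 1)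
      (opOf_intertwine ρ εE (hcE cyc0Exp))
      (fun v => by rw [rot, ← cycPerm_cyc0]; exact pair_conjExp _ _ _ v) hx
  let J := {μ : Exp 6 // IsLeast3 μ ∨ IsFull μ}
  let G : J → End k V := fun μ => if IsFull μ.1 then 1 else 1 + S + S * S
  have hGfix : ∀ (μ : J), ∀ x ∈ wt T h3 μ.1, S (G μ x) = G μ x := by
    intro μ x hx
    by_cases hf : IsFull μ.1
    · simp only [G, if_pos hf, End.one_apply]
      exact hfull _ hf x hx
    · simp only [G, if_neg hf, LinearMap.add_apply, End.one_apply, End.mul_apply, map_add]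
      have : S (S (S x)) = x := by
        rw [← End.mul_apply, ← End.mul_apply, hS3, End.one_apply]
      rw [this]
      abel
  have hGproj : ∀ (μ ν : J), ∀ x ∈ wt T h3 μ.1,
      proj T h3 ν.1 (G μ x) = if ν = μ then x else 0 := by
    intro μ ν x hx
    have hxx : proj T h3 ν.1 x = if ν = μ then x else 0 := by
      rw [proj_of_mem T hζ hx]
      exact if_congr Subtype.ext_iff.symm rfl rfl
    by_cases hf : IsFull μ.1
    · simp only [G, if_pos hf, End.one_apply]
      exact hxx
    · obtain ⟨-, -, hout⟩ := (rot_facts μ.1).1 (μ.2.resolve_right hf)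
      have hne : ∀ ρ', ρ' = rot μ.1 ∨ ρ' = rot (rot μ.1) → ν.1 ≠ ρ' := fun ρ' hρ e => by
        obtain ⟨a, b⟩ := hout ρ' hρ
        exact ν.2.elim (e ▸ a) (e ▸ b)
      simp only [G, if_neg hf, LinearMap.add_apply, End.one_apply, End.mul_apply, map_add]
      rw [proj_of_mem T hζ (hrot _ x hx), if_neg (hne _ (Or.inl rfl)),
        proj_of_mem T hζ (hrot _ _ (hrot _ x hx)), if_neg (hne _ (Or.inr rfl)), hxx, add_zero, add_zero]
  let Φ : ((μ : J) → ↥(wt T h3 μ.1)) →ₗ[k] ↥(End.eigenspace S 1) :=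
    { toFun := fun f => ⟨∑ μ, G μ (f μ : V), End.mem_eigenspace_iff.2 (by
        rw [one_smul, map_sum]
        exact Finset.sum_congr rfl fun μ _ => hGfix μ _ (f μ).2)⟩
      map_add' := fun a b => Subtype.ext (by
        simp only [Pi.add_apply, Submodule.coe_add, map_add, Finset.sum_add_distrib])
      map_smul' := fun c a => Subtype.ext (by
        simp only [Pi.smul_apply, SetLike.val_smul, map_smul, Finset.smul_sum, RingHom.id_apply]) }
  have hproj : ∀ (f : (μ : J) → ↥(wt T h3 μ.1)) (ν : J), proj T h3 ν.1 (Φ f).1 = (f ν : V) := by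
    intro f ν
    show proj T h3 ν.1 (∑ μ, G μ (f μ : V)) = _
    rw [map_sum, Finset.sum_eq_single ν]
    · rw [hGproj ν ν _ (f ν).2, if_pos rfl]
    · intro μ _ hne
      rw [hGproj μ ν _ (f μ).2, if_neg (Ne.symm hne)]
    · exact fun h => absurd (Finset.mem_univ _) h
  have hΦ : Function.Injective Φ := fun a b hab => funext fun ν => Subtype.ext (by
    rw [← hproj a ν, ← hproj b ν, hab])
  have hlow := LinearMap.finrank_le_finrank_of_injective hΦ
  rw [Module.finrank_pi_fintype, ← Finset.sum_subtype (Finset.univ.filter fun μ => IsLeast3 μ ∨ IsFull μ)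
    (fun μ => by simp) (fun μ => finrank k ↥(wt T h3 μ)), hsum,
    hlist _ _ _ _ _ _ _ _ count_low] at hlow
  simp only [Finset.mem_insert, Finset.mem_singleton] at f2 f3
  exact arith_final etot e2 e3 hlow hle f2 f3

end CfsgLib.E8Alt74
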