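import Mathlib
import Cfsg.Agent.F4AltSection.Lift

/-!
Lifting subgroups of `p`-power order through a surjection whose kernel has order prime to `p`.
-/

set_option autoImplicit false

namespace CfsgLib.E8Alt74

variable {H Q L : Type*} [Group H] [Finite H] [Group Q] [Group L] (π : H →* Q) {p : ℕ} [Fact p.Prime]
  {ι : L →* Q}

/-- An element of `p`-power order of the kernel is trivial. -/
theorem eq_one_of_mem_ker (hK : ¬ p ∣ Nat.card ↥π.ker) {P : Subgroup H} (hP : IsPGroup p ↥P) {x : H}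
    (hx : x ∈ P) (hxk : π x = 1) : x = 1 := by
  obtain ⟨n, hn⟩ := hP ⟨x, hx⟩
  have h1 : x ^ p ^ n = 1 := congrArg Subtype.val hn
  have h2 : x ^ Nat.card ↥π.ker = 1 := congrArg Subtype.val
    (pow_card_eq_one' (x := (⟨x, hxk⟩ : ↥π.ker)))
  exact orderOf_eq_one_iff.1 (Nat.eq_one_of_dvd_coprimes
    (Nat.Coprime.pow_left n ((Fact.out : p.Prime).coprime_iff_not_dvd.2 hK))
    (orderOf_dvd_of_pow_eq_one h1) (orderOf_dvd_of_pow_eq_one h2))

variable (hπ : Function.Surjective π) (hK : ¬ p ∣ Nat.card ↥π.ker)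
include hπ hK

/-- A `p`-group mapped into the image lifts as a homomorphism. -/
theorem exists_section (hι : Function.Injective ι) (hL : IsPGroup p L) :
    ∃ s : L →* H, ∀ l, π (s l) = ι l := by
  classical
  let M := ι.range.comap π
  let ν : ↥M →* ↥ι.range := π.subgroupComap ι.range
  have hν : Function.Surjective ν := fun y => by
    obtain ⟨z, hz⟩ := hπ y.1
    exact ⟨⟨z, by show π z ∈ ι.range; rw [hz]; exact y.2⟩, Subtype.ext hz⟩
  obtain ⟨P⟩ : Nonempty (Sylow p ↥M) := Sylow.nonempty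
  have hR : IsPGroup p ↥ι.range := hL.of_surjective ι.rangeRestrict ι.rangeRestrict_surjective
  haveI : Finite ↥ι.range := Finite.of_surjective ν hν
  have htop : (P : Subgroup ↥M).map ν = ⊤ :=
    ((P.mapSurjective hν).3 (hR.to_subgroup ⊤) le_top).symm
  let μ : ↥(P : Subgroup ↥M) →* L :=
    (MonoidHom.ofInjective hι).symm.toMonoidHom.comp (ν.comp (P : Subgroup ↥M).subtype)
  have hμ : ∀ y, ι (μ y) = π (y : ↥M).1 := fun y => by
    show ι ((MonoidHom.ofInjective hι).symm (ν (y : ↥M))) = _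
    rw [MonoidHom.apply_ofInjective_symm]
    rfl
  have hinj : Function.Injective μ := (injective_iff_map_eq_one μ).2 fun y hy => by
    have h1 : π (y : ↥M).1 = 1 := by rw [← hμ, hy, map_one]
    have hPp : IsPGroup p ↥((P : Subgroup ↥M).map M.subtype) := P.2.map _
    exact Subtype.ext (Subtype.ext (eq_one_of_mem_ker π hK hPp ⟨_, y.2, rfl⟩ h1))
  have hsurj : Function.Surjective μ := fun l => by
    have hl : (MonoidHom.ofInjective hι l) ∈ (P : Subgroup ↥M).map ν := htop ▸ Subgroup.mem_top _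
    obtain ⟨y, hy, hyl⟩ := hl
    refine ⟨⟨y, hy⟩, ?_⟩
    show (MonoidHom.ofInjective hι).symm (ν y) = l
    rw [hyl, MulEquiv.symm_apply_apply]
  let e := MulEquiv.ofBijective μ ⟨hinj, hsurj⟩
  refine ⟨M.subtype.comp ((P : Subgroup ↥M).subtype.comp e.symm.toMonoidHom), fun l => ?_⟩
  show π ((e.symm l : ↥M) : H) = ι l
  rw [← hμ]
  exact congrArg ι (e.apply_symm_apply l)

/-- A `p`-subgroup over the image of a section is conjugate into it by an element over the image. -/
theorem exists_conj_range (hι : Function.Injective ι) {t : L →* H} (ht : ∀ l, π (t l) = ι l)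
    {P : Subgroup H} (hP : IsPGroup p ↥P) (hPM : ∀ x ∈ P, π x ∈ ι.range) :
    ∃ h, π h = 1 ∧ ∀ x ∈ P, h * x * h⁻¹ ∈ t.range := by
  classical
  let M := ι.range.comap π
  have htM : t.range ≤ M := by
    rintro _ ⟨l, rfl⟩
    exact ⟨l, (ht l).symm⟩
  have hidx : ¬ p ∣ (t.range.subgroupOf M).index := by
    have hd : (t.range.subgroupOf M).index ∣ Nat.card ↥π.ker := by
      let ν : ↥M →* ↥ι.range := π.subgroupComap ι.range
      have hν : Function.Surjective ν := fun y => by
        obtain ⟨z, hz⟩ := hπ y.1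
        exact ⟨⟨z, by show π z ∈ ι.range; rw [hz]; exact y.2⟩, Subtype.ext hz⟩
      have h1 : Nat.card ν.ker = Nat.card ↥π.ker := Nat.card_congr
        { toFun := fun z => ⟨z.1.1, congrArg Subtype.val (show ν z.1 = 1 from z.2)⟩
          invFun := fun z => ⟨⟨z.1, by show π z.1 ∈ ι.range; rw [show π z.1 = 1 from z.2]; exact one_mem _⟩,
            Subtype.ext (show π z.1 = 1 from z.2)⟩
          left_inv := fun z => rfl
          right_inv := fun z => rfl }
      have h2 := (t.range.subgroupOf M).card_mul_index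
      have htinj : Function.Injective t := fun a b e => hι (by rw [← ht, ← ht, e])
      rw [Nat.card_congr (Subgroup.subgroupOfEquivOfLe htM).toEquiv,
        ← Nat.card_congr (MonoidHom.ofInjective htinj).toEquiv, ← ν.ker.card_mul_index,
        Subgroup.index_ker, h1, MonoidHom.range_eq_top.2 hν, Subgroup.card_top,
        ← Nat.card_congr (MonoidHom.ofInjective hι).toEquiv, mul_comm (Nat.card ↥π.ker)] at h2
      haveI : Finite L := Finite.of_injective t htinj
      exact (Nat.eq_of_mul_eq_mul_left Nat.card_pos h2).dvd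
    exact fun h => hK (h.trans hd)
  obtain ⟨w, hw⟩ := F4AltSection.exists_conj_into (t.range.subgroupOf M) hidx
    (P := P.subgroupOf M) hP.comap_subtype
  obtain ⟨a, ha⟩ := w.2
  refine ⟨(t a)⁻¹ * w, by rw [map_mul, map_inv, ht, ha, inv_mul_cancel], fun x hx => ?_⟩
  have h1 := hw ⟨x, hPM x hx⟩ (Subgroup.mem_subgroupOf.2 hx)
  rw [Subgroup.mem_subgroupOf] at h1
  obtain ⟨b, hb⟩ := h1
  refine ⟨a⁻¹ * b * a, ?_⟩
  rw [map_mul, map_mul, map_inv, hb]
  simp only [Subgroup.coe_mul, Subgroup.coe_inv]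
  group

/-- Two sections are carried into each other over any element normalising the image. -/
theorem exists_conj_section (hι : Function.Injective ι) (hL : IsPGroup p L) {s t : L →* H}
    (hs : ∀ l, π (s l) = ι l) (ht : ∀ l, π (t l) = ι l) (n : Q) (φ : L → L)
    (hn : ∀ l, n * ι l * n⁻¹ = ι (φ l)) :
    ∃ h, π h = n ∧ ∀ l, h * s l * h⁻¹ = t (φ l) := by
  obtain ⟨g, hg⟩ := hπ n
  obtain ⟨w, hw1, hw⟩ := exists_conj_range π hπ hK hι ht
    (P := s.range.map (MulAut.conj g).toMonoidHom)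
    ((hL.of_surjective s.rangeRestrict s.rangeRestrict_surjective).map _) (by
      rintro _ ⟨_, ⟨l, rfl⟩, rfl⟩
      refine ⟨φ l, ?_⟩
      show ι (φ l) = π (g * s l * g⁻¹)
      rw [map_mul, map_mul, map_inv, hg, hs, hn])
  refine ⟨w * g, by rw [map_mul, hw1, hg, one_mul], fun l => ?_⟩
  obtain ⟨b, hb⟩ := hw (g * s l * g⁻¹) ⟨s l, ⟨l, rfl⟩, rfl⟩
  have e : w * g * s l * (w * g)⁻¹ = t b := by rw [hb]; group
  rw [e]
  refine congrArg t (hι ?_)
  rw [← ht, ← e, map_mul, map_mul, map_inv, map_mul, hw1, one_mul, hg, hs, hn]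

/-- Elements of order dividing `p` over conjugate images are conjugate. -/
theorem exists_conj_elem {x y : H} (hx : x ^ p = 1) (hy : y ^ p = 1) {q : Q}
    (hq : q * π x * q⁻¹ = π y) : ∃ h, h * x * h⁻¹ = y := by
  have hzp : ∀ z : H, z ^ p = 1 → IsPGroup p ↥(Subgroup.zpowers z) := fun z hz => by
    rintro ⟨a, i, rfl⟩
    refine ⟨1, Subtype.ext ?_⟩
    show (z ^ i) ^ p ^ 1 = 1
    rw [pow_one, ← zpow_natCast, ← zpow_mul, mul_comm, zpow_mul, zpow_natCast, hz, one_zpow]
  set Y := Subgroup.zpowers y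
  have hι : Function.Injective (π.comp Y.subtype) := (injective_iff_map_eq_one _).2 fun z hz =>
    Subtype.ext (eq_one_of_mem_ker π hK (hzp y hy) z.2 hz)
  obtain ⟨g, hg⟩ := hπ q
  have hgx : (g * x * g⁻¹) ^ p = 1 := by rw [conj_pow, hx, mul_one, mul_inv_cancel]
  obtain ⟨w, hw1, hw⟩ := exists_conj_range π hπ hK (ι := π.comp Y.subtype) (t := Y.subtype) hι
    (fun l => rfl) (P := Subgroup.zpowers (g * x * g⁻¹)) (hzp _ hgx) (by
      rintro _ ⟨i, rfl⟩
      refine ⟨⟨y ^ i, zpow_mem (Subgroup.mem_zpowers y) i⟩, ?_⟩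
      show π (y ^ i) = π ((g * x * g⁻¹) ^ i)
      rw [map_zpow, map_zpow, map_mul, map_mul, map_inv, hg, hq])
  obtain ⟨b, hb⟩ := hw _ (Subgroup.mem_zpowers _)
  refine ⟨w * g, ?_⟩
  have e : w * g * x * (w * g)⁻¹ = (b : H) := by
    rw [show (b : H) = w * (g * x * g⁻¹) * w⁻¹ from hb]; group
  rw [e]
  refine congrArg Subtype.val (hι (a₁ := b) (a₂ := ⟨y, Subgroup.mem_zpowers y⟩) ?_)
  show π (b : H) = π y
  rw [← e, map_mul, map_mul, map_inv, map_mul, hw1, one_mul, hg, hq]

end CfsgLib.E8Alt74
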