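import Mathlib
import Cfsg.Agent.Chevalley.Coxeter
import Cfsg.Agent.Chevalley.Data.SysE8
import Cfsg.Agent.F4AltSection.Torus

/-!
Normal subgroups of small index in a Sylow 3-subgroup of the alternating group of degree 18, and
elements of order nine in the Weyl group of type E8.
-/

set_option autoImplicit false

namespace CfsgLib.E8Alt74

/-- The eighteen points of two copies of `3 wr 3`. -/
abbrev Pt : Type := Bool × ZMod 3 × ZMod 3

/-- A code for an element of the product of two copies of `3 wr 3`. -/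
abbrev Cd : Type := (Bool → ZMod 3 → ZMod 3) × (Bool → ZMod 3)

/-- The permutation of a code. -/
def cdPerm (c : Cd) : Equiv.Perm Pt where
  toFun x := (x.1, x.2.1 + c.2 x.1, x.2.2 + c.1 x.1 x.2.1)
  invFun x := (x.1, x.2.1 - c.2 x.1, x.2.2 - c.1 x.1 (x.2.1 - c.2 x.1))
  left_inv := by rintro ⟨h, j, r⟩; simp
  right_inv := by rintro ⟨h, j, r⟩; simp

theorem cdPerm_apply (c : Cd) (h : Bool) (j r : ZMod 3) :
    cdPerm c (h, j, r) = (h, j + c.2 h, r + c.1 h j) := rfl

theorem cdPerm_mul (p q : Cd) :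
    cdPerm p * cdPerm q = cdPerm (fun h j => q.1 h j + p.1 h (j + q.2 h), fun h => q.2 h + p.2 h) := by
  refine Equiv.ext fun ⟨h, j, r⟩ => ?_
  simp [cdPerm_apply, add_assoc]

theorem cdPerm_zero : cdPerm (fun _ _ => 0, fun _ => 0) = 1 := by
  refine Equiv.ext fun ⟨h, j, r⟩ => ?_
  simp [cdPerm_apply]

theorem cdPerm_inv (p : Cd) :
    (cdPerm p)⁻¹ = cdPerm (fun h j => - p.1 h (j - p.2 h), fun h => - p.2 h) := by
  refine Equiv.ext fun ⟨h, j, r⟩ => ?_
  rw [Equiv.Perm.inv_eq_iff_eq, cdPerm_apply, cdPerm_apply]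
  simp [sub_eq_add_neg, add_assoc]

theorem cdPerm_injective : Function.Injective cdPerm := by
  rintro ⟨b, i⟩ ⟨b', i'⟩ e
  refine Prod.ext (funext fun h => funext fun j => ?_) (funext fun h => ?_)
  · simpa [cdPerm_apply] using congrArg (fun f : Equiv.Perm Pt => (f (h, j, 0)).2.2) e
  · simpa [cdPerm_apply] using congrArg (fun f : Equiv.Perm Pt => (f (h, 0, 0)).2.1) e

/-- The product of two copies of `3 wr 3`. -/
def modelP : Subgroup (Equiv.Perm Pt) where
  carrier := Set.range cdPerm
  one_mem' := ⟨_, cdPerm_zero⟩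
  mul_mem' := fun ⟨p, hp⟩ ⟨q, hq⟩ => ⟨_, (hp ▸ hq ▸ cdPerm_mul p q).symm⟩
  inv_mem' := fun ⟨p, hp⟩ => ⟨_, (hp ▸ cdPerm_inv p).symm⟩

/-- An element as a member of the product. -/
def mP (c : Cd) : modelP := ⟨cdPerm c, c, rfl⟩

theorem mP_surjective : Function.Surjective mP := fun ⟨_, c, hc⟩ => ⟨c, Subtype.ext hc⟩

theorem mP_injective : Function.Injective mP := fun _ _ e =>
  cdPerm_injective (congrArg Subtype.val e)

theorem card_modelP : Nat.card modelP = 3 ^ 8 := by
  rw [← Nat.card_congr (Equiv.ofBijective mP ⟨mP_injective, mP_surjective⟩),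
    Nat.card_eq_fintype_card]
  simp [Cd, Fintype.card_prod, Fintype.card_fun]

theorem mP_mul (p q : Cd) :
    mP p * mP q = mP (fun h j => q.1 h j + p.1 h (j + q.2 h), fun h => q.2 h + p.2 h) :=
  Subtype.ext (cdPerm_mul p q)

theorem mP_inv (p : Cd) :
    (mP p)⁻¹ = mP (fun h j => - p.1 h (j - p.2 h), fun h => - p.2 h) :=
  Subtype.ext (cdPerm_inv p)

theorem mP_ext {p q : Cd} (h1 : ∀ h j, p.1 h j = q.1 h j) (h2 : ∀ h, p.2 h = q.2 h) :
    mP p = mP q :=
  congrArg mP (Prod.ext (funext fun h => funext (h1 h)) (funext h2))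

/-- The sum of the three values. -/
def bsum (b : ZMod 3 → ZMod 3) : ZMod 3 := b 0 + b 1 + b 2

/-- The number of nonzero values. -/
def bcnt (b : ZMod 3 → ZMod 3) : ℕ := (Finset.univ.filter fun j => b j ≠ 0).card

/-- Difference with the shift. -/
def bdiff (b : ZMod 3 → ZMod 3) : ZMod 3 → ZMod 3 := fun j => b j - b (j - 1)

/-- A base element of one copy. -/
def single (h : Bool) (b : ZMod 3 → ZMod 3) : Cd :=
  (fun h' j => if h' = h then b j else 0, fun _ => 0)

/-- The shift of one copy. -/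
def shift (h : Bool) (k : ZMod 3) : Cd :=
  (fun _ _ => 0, fun h' => if h' = h then k else 0)

theorem facts_diff : ∀ b : ZMod 3 → ZMod 3,
    (bsum b ≠ 0 → bsum (bdiff b) = 0 ∧ bcnt (bdiff b) = 2) ∧
      (bsum b = 0 → bcnt b = 2 → bcnt (bdiff b) = 3) := by
  decide +kernel

theorem facts_delta : ∀ i : ZMod 3, i ≠ 0 →
    bsum (fun j => (if j - i = 0 then 1 else 0) - (if j = 0 then 1 else 0)) = 0 ∧
      bcnt (fun j => (if j - i = 0 then 1 else 0) - (if j = 0 then (1 : ZMod 3) else 0)) = 2 := by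
  decide +kernel

theorem facts_const : ∀ b : ZMod 3 → ZMod 3, bsum b = 0 → bcnt b ≠ 2 → ∀ j, b j = b 0 := by
  decide +kernel

theorem support_single : ∀ (h : Bool) (b : ZMod 3 → ZMod 3),
    (cdPerm (single h b)).support.card = 3 * bcnt b := by
  decide +kernel

theorem card_sum_zero :
    (Finset.univ.filter fun b : ZMod 3 → ZMod 3 => bsum b = 0).card = 9 := by
  decide +kernel

/-- The commutator with a base element of one copy. -/
theorem comm_single (p : Cd) (h : Bool) (c : ZMod 3 → ZMod 3) :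
    mP p * mP (single h c) * (mP p)⁻¹ * (mP (single h c))⁻¹ =
      mP (single h fun j => c (j - p.2 h) - c j) := by
  simp only [mP_inv, mP_mul]
  refine mP_ext (fun h' j => ?_) fun h' => ?_
  · simp only [single]
    by_cases e : h' = h
    · subst e; simp [sub_eq_add_neg]; abel
    · simp [e, sub_eq_add_neg]
  · simp [single]

/-- The commutator with the shift of one copy. -/
theorem comm_shift (p : Cd) (h : Bool) (hp : p.2 h = 0) :
    mP p * mP (shift h 1) * (mP p)⁻¹ * (mP (shift h 1))⁻¹ = mP (single h (bdiff (p.1 h))) := by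
  simp only [mP_inv, mP_mul]
  refine mP_ext (fun h' j => ?_) fun h' => ?_
  · simp only [single, shift, bdiff]
    by_cases e : h' = h
    · subst e; simp [hp, sub_eq_add_neg]; abel
    · simp [e, sub_eq_add_neg]
  · simp only [single, shift]; abel

theorem three_zero : ∀ x : ZMod 3, x + x + x = 0 := by decide

theorem cube_code (p : Cd) :
    mP p ^ 3 = mP (single false fun j => p.1 false j + p.1 false (j + p.2 false) +
        p.1 false (j + p.2 false + p.2 false)) *
      mP (single true fun j => p.1 true j + p.1 true (j + p.2 true) +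
        p.1 true (j + p.2 true + p.2 true)) := by
  rw [pow_three]
  simp only [mP_mul]
  have t : ∀ x : ZMod 3, x + x + x = 0 := by decide
  refine mP_ext (fun h' j => ?_) fun h' => ?_
  · cases h' <;> simp [single, add_assoc]
  · simpa [single, add_assoc] using t (p.2 h')

theorem facts_cube : ∀ (b : ZMod 3 → ZMod 3) (i : ZMod 3), (i = 0 ∨ i = 1 ∨ i = 2) →
    ∀ j, b j + b (j + i) + b (j + i + i) = b 0 + b (0 + i) + b (0 + i + i) := by
  decide +kernel

theorem le_prime_pow_five {n : ℕ} {k : ℕ} (h : 3 ^ k ∣ n) (hn : ¬ 3 ^ 6 ∣ n) : k ≤ 5 := by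
  by_contra hc
  exact hn ((Nat.pow_dvd_pow 3 (by omega : 6 ≤ k)).trans h)

/-- In the model, a map to a group with small Sylow 3-subgroup of exponent nine kills elements of
order three moving six and moving nine points. -/
theorem exists_model {W : Type} [Group W] [Finite W] (θ : modelP →* W)
    (hW : ¬ 3 ^ 6 ∣ Nat.card W) (hex : ∀ R : Subgroup W, Nat.card R = 3 ^ 5 → ∃ r ∈ R, r ^ 3 ≠ 1) :
    ∃ (h : Bool) (b b' : ZMod 3 → ZMod 3), bcnt b = 2 ∧ bcnt b' = 3 ∧
      mP (single h b) ∈ θ.ker ∧ mP (single h b') ∈ θ.ker := by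
  set A := θ.ker
  have hcomm : ∀ {a : modelP}, a ∈ A → ∀ g, a * g * a⁻¹ * g⁻¹ ∈ A := fun {a} ha g => by
    rw [mul_assoc a g, mul_assoc a (g * a⁻¹)]
    exact mul_mem ha ((inferInstance : A.Normal).conj_mem _ (inv_mem ha) g)
  have step : ∀ h b, bsum b = 0 → bcnt b = 2 → mP (single h b) ∈ A →
      ∃ b', bcnt b' = 3 ∧ mP (single h b') ∈ A := fun h b h0 h2 hm => by
    have hb : (single h b).1 h = b := funext fun j => by simp [single]
    have e := comm_shift (single h b) h rfl
    rw [hb] at e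
    exact ⟨bdiff b, (facts_diff b).2 h0 h2, e ▸ hcomm hm _⟩
  by_contra hcon
  push Not at hcon
  have hno : ∀ h b, bsum b = 0 → bcnt b = 2 → mP (single h b) ∉ A := fun h b h0 h2 hm => by
    obtain ⟨b', h3, hm'⟩ := step h b h0 h2 hm
    exact hcon h b b' h2 h3 hm hm'
  have hC : ∀ p, mP p ∈ A → ∀ h, p.2 h = 0 ∧ bsum (p.1 h) = 0 := by
    intro p hp h
    by_cases hi : p.2 h = 0
    · refine ⟨hi, ?_⟩
      by_contra hs
      obtain ⟨h0, h2⟩ := (facts_diff (p.1 h)).1 hs
      exact hno h _ h0 h2 (comm_shift p h hi ▸ hcomm hp _)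
    · exfalso
      obtain ⟨h0, h2⟩ := facts_delta _ hi
      exact hno h _ h0 h2 (comm_single p h (fun j => if j = 0 then 1 else 0) ▸ hcomm hp _)
  -- the order of the kernel
  obtain ⟨k, hk⟩ : ∃ k, Nat.card θ.range = 3 ^ k :=
    (Nat.dvd_prime_pow Nat.prime_three).1 (card_modelP ▸ Subgroup.card_range_dvd θ) |>.imp
      fun k h => h.2
  have hk5 : k ≤ 5 := le_prime_pow_five (hk ▸ Subgroup.card_subgroup_dvd_card θ.range) hW
  have hprod : Nat.card A * 3 ^ k = 3 ^ 8 := by
    rw [← hk, ← Subgroup.index_ker θ, A.card_mul_index, card_modelP]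
  let cd : A → Cd := fun a => (mP_surjective a.1).choose
  have hcd : ∀ a : A, mP (cd a) = a.1 := fun a => (mP_surjective a.1).choose_spec
  have hcdA : ∀ a : A, mP (cd a) ∈ A := fun a => by rw [hcd]; exact a.2
  have hbij : ∀ h : Bool, Function.Bijective (fun a : A =>
      ((⟨(cd a).1 (!h), (hC _ (hcdA a) (!h)).2⟩ : {b : ZMod 3 → ZMod 3 // bsum b = 0}),
        (cd a).1 h 0)) ∧ Nat.card A = 27 := by
    intro h
    set F := fun a : A => ((⟨(cd a).1 (!h), (hC _ (hcdA a) (!h)).2⟩ :
      {b : ZMod 3 → ZMod 3 // bsum b = 0}), (cd a).1 h 0)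
    have hinj : Function.Injective F := by
      intro a a' e
      simp only [F, Prod.mk.injEq, Subtype.mk.injEq] at e
      have hd : mP (single h fun j => (cd a).1 h j - (cd a').1 h j) = a.1 * a'.1⁻¹ := by
        rw [← hcd a, ← hcd a', mP_inv, mP_mul]
        refine mP_ext (fun h' j => ?_) fun h' => ?_
        · rcases Bool.eq_or_eq_not h' h with rfl | rfl
          · simp [single, (hC _ (hcdA a) h').1, (hC _ (hcdA a') h').1, sub_eq_add_neg, add_comm]
          · simp [single, (hC _ (hcdA a) (!h)).1, (hC _ (hcdA a') (!h)).1, e.1]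
        · simp [single, (hC _ (hcdA a) h').1, (hC _ (hcdA a') h').1]
      have hm : mP (single h fun j => (cd a).1 h j - (cd a').1 h j) ∈ A :=
        hd ▸ mul_mem a.2 (inv_mem a'.2)
      have hs := (hC _ hm h).2
      simp only [single, if_true] at hs
      have hzero : ∀ j, (cd a).1 h j - (cd a').1 h j = 0 := fun j => by
        rw [facts_const _ hs (fun h2 => hno h _ hs h2 hm) j, e.2, sub_self]
      have h1 : mP (single h fun j => (cd a).1 h j - (cd a').1 h j) = 1 := by
        refine Subtype.ext ?_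
        show cdPerm _ = 1
        rw [← cdPerm_zero]
        exact congrArg cdPerm (Prod.ext (funext fun h' => funext fun j => by simp [single, hzero]) rfl)
      rw [hd, mul_inv_eq_one] at h1
      exact Subtype.ext h1
    have h27 : Nat.card ({b : ZMod 3 → ZMod 3 // bsum b = 0} × ZMod 3) = 27 := by
      rw [Nat.card_prod, Nat.card_eq_fintype_card, Fintype.card_subtype, card_sum_zero]
      simp
    have hA : Nat.card A = 27 := by
      have h1 := h27 ▸ Nat.card_le_card_of_injective F hinj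
      have h2 : 27 ≤ Nat.card A := by
        have := Nat.pow_le_pow_right (by norm_num : 0 < 3) hk5
        nlinarith
      omega
    exact ⟨(Nat.bijective_iff_injective_and_card F).2 ⟨hinj, hA.trans h27.symm⟩, hA⟩
  have hconst : ∀ h (c : ZMod 3), mP (single h fun _ => c) ∈ A := by
    intro h c
    obtain ⟨a, ha⟩ := (hbij h).1.2 (⟨0, by decide⟩, c)
    simp only [Prod.mk.injEq, Subtype.mk.injEq] at ha
    have e : mP (cd a) = mP (single h ((cd a).1 h)) := by
      refine mP_ext (fun h' j => ?_) fun h' => (hC _ (hcdA a) h').1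
      rcases Bool.eq_or_eq_not h' h with rfl | rfl
      · simp [single]
      · simp [single, ha.1]
    have hm : mP (single h ((cd a).1 h)) ∈ A := e ▸ hcdA a
    have hs := (hC _ (hcdA a) h).2
    have hall : (cd a).1 h = fun _ => c := funext fun j =>
      (facts_const _ hs (fun h2 => hno h _ hs h2 hm) j).trans ha.2
    exact hall ▸ hm
  have hA27 := (hbij false).2
  obtain ⟨r, hr, hr3⟩ := hex θ.range (by
    rw [hA27] at hprod
    rw [hk]
    omega)
  obtain ⟨x, rfl⟩ := hr
  obtain ⟨p, rfl⟩ := mP_surjective x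
  refine hr3 ?_
  rw [← map_pow, ← MonoidHom.mem_ker, cube_code]
  refine mul_mem ?_ ?_
  all_goals
    rw [show ∀ h i, (fun j => p.1 h j + p.1 h (j + i) + p.1 h (j + i + i)) =
      (fun _ : ZMod 3 => p.1 h 0 + p.1 h (0 + i) + p.1 h (0 + i + i)) from
        fun h i => funext (facts_cube (p.1 h) i (by revert i; decide))]
    exact hconst _ _

theorem card_support_permCongr {α β : Type*} [Fintype α] [DecidableEq α] [Fintype β]
    [DecidableEq β] (e : α ≃ β) (p : Equiv.Perm α) :
    (e.permCongr p).support.card = p.support.card :=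
  Finset.card_equiv e.symm fun i => by
    simp [Equiv.Perm.mem_support, Equiv.permCongr_apply, Equiv.eq_symm_apply]

theorem card_support_conj' {α : Type*} [Fintype α] [DecidableEq α] (g p : Equiv.Perm α) :
    (g * p * g⁻¹).support.card = p.support.card := by
  rw [Equiv.Perm.support_conj, Finset.card_map]

theorem factorization_card_perm : (Nat.card (Equiv.Perm Pt)).factorization 3 = 8 := by
  have hc : Nat.card (Equiv.Perm Pt) = 3 ^ 8 * 975822848000 := by
    rw [Nat.card_perm, Nat.card_eq_fintype_card]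
    simp [Pt, Nat.factorial]
  rw [hc, Nat.factorization_mul (by norm_num) (by norm_num), Finsupp.add_apply,
    Nat.Prime.factorization_pow Nat.prime_three, Finsupp.single_eq_same,
    Nat.factorization_eq_zero_of_not_dvd (by norm_num)]

/-- A map from a Sylow 3-subgroup of degree 18 to a group with small Sylow 3-subgroup of exponent
nine kills elements of order three of both cycle types. -/
theorem exists_types {S W : Type} [Group S] [Finite S] [Group W] [Finite W]
    (ψ : S →* ↥(alternatingGroup (Fin 18))) (hψ : Function.Injective ψ)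
    (hS : Nat.card S = 3 ^ 8) (θ : S →* W) (hW : ¬ 3 ^ 6 ∣ Nat.card W)
    (hex : ∀ R : Subgroup W, Nat.card R = 3 ^ 5 → ∃ r ∈ R, r ^ 3 ≠ 1) :
    ∀ m, m = 6 ∨ m = 9 →
      ∃ s ∈ θ.ker, s ^ 3 = 1 ∧ (ψ s : Equiv.Perm (Fin 18)).support.card = m := by
  haveI : Fact (Nat.Prime 3) := ⟨Nat.prime_three⟩
  let e : Fin 18 ≃ Pt := Fintype.equivOfCardEq (by simp [Pt])
  let χ : S →* Equiv.Perm Pt :=
    (e.permCongrHom.toMonoidHom.comp (alternatingGroup (Fin 18)).subtype).comp ψ
  have hχ : Function.Injective χ :=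
    e.permCongrHom.injective.comp (Subtype.val_injective.comp hψ)
  let Q : Sylow 3 (Equiv.Perm Pt) := Sylow.ofCard χ.range (by
    rw [factorization_card_perm, ← hS]
    exact Nat.card_congr (MonoidHom.ofInjective hχ).toEquiv.symm)
  let P : Sylow 3 (Equiv.Perm Pt) := Sylow.ofCard modelP (by
    rw [factorization_card_perm, card_modelP])
  obtain ⟨g, hg⟩ := MulAction.exists_smul_eq (Equiv.Perm Pt) P Q
  have hg' : χ.range = modelP.map (MulAut.conj g).toMonoidHom := by
    have := congrArg (fun T : Sylow 3 (Equiv.Perm Pt) => (T : Subgroup (Equiv.Perm Pt))) hg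
    exact this.symm
  have hex1 : ∀ x : modelP, ∃ s, χ s = g * x.1 * g⁻¹ := fun x => by
    have : g * x.1 * g⁻¹ ∈ χ.range := hg' ▸ ⟨x.1, x.2, rfl⟩
    exact this
  choose f hf using hex1
  let fh : modelP →* S :=
    { toFun := f
      map_one' := hχ (by rw [hf, map_one]; simp)
      map_mul' := fun x y => hχ (by rw [hf, map_mul, hf, hf, Subgroup.coe_mul]; group) }
  obtain ⟨h, b, b', hb, hb', hm, hm'⟩ := exists_model (θ.comp fh) hW hex
  have key : ∀ (b : ZMod 3 → ZMod 3), mP (single h b) ∈ (θ.comp fh).ker →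
      ∃ s ∈ θ.ker, s ^ 3 = 1 ∧ (ψ s : Equiv.Perm (Fin 18)).support.card = 3 * bcnt b := by
    intro b hb
    refine ⟨f (mP (single h b)), hb, ?_, ?_⟩
    · show fh (mP (single h b)) ^ 3 = 1
      rw [← map_pow]
      convert map_one fh
      rw [cube_code]
      refine (mP_mul _ _).trans (Subtype.ext ?_)
      show cdPerm _ = 1
      rw [← cdPerm_zero]
      refine congrArg cdPerm (Prod.ext (funext fun h' => funext fun j => ?_) (funext fun h' => ?_))
      · cases h <;> cases h' <;> simp [single, three_zero]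
      · simp [single]
    · rw [← card_support_permCongr e]
      show (χ (f (mP (single h b)))).support.card = _
      rw [hf, card_support_conj']
      exact support_single h b
  rintro m (rfl | rfl)
  · obtain ⟨s, h1, h2, h3⟩ := key b hm
    exact ⟨s, h1, h2, by rw [h3, hb]⟩
  · obtain ⟨s, h1, h2, h3⟩ := key b' hm'
    exact ⟨s, h1, h2, by rw [h3, hb']⟩

open CfsgLib.Chevalley CfsgLib.F4AltSection

theorem chk_nine : chkOrder Cfsg.Lie.chevE8 [0, 1, 2, 3, 4, 5, 6, 0, 1, 2, 3, 4, 5, 6] 9 = true := by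
  decide +kernel

/-- A Sylow 3-subgroup of the Weyl group of type E8 has elements of order nine. -/
theorem weylE8_exponent (hcard : Nat.card ↥(weylPerms sysE8) = 696729600) :
    ∀ R : Subgroup ↥(weylPerms sysE8), Nat.card R = 3 ^ 5 → ∃ r ∈ R, r ^ 3 ≠ 1 := by
  intro R hR
  haveI : Fact (Nat.Prime 3) := ⟨Nat.prime_three⟩
  haveI : Finite ↥(weylPerms sysE8) := Nat.finite_of_card_ne_zero (by rw [hcard]; norm_num)
  let L : List (Fin Cfsg.Lie.chevE8.rank) :=
    [0, 1, 2, 3, 4, 5, 6, 0, 1, 2, 3, 4, 5, 6].pmap (fun i h => ⟨i, h⟩)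
      (by decide : ∀ i ∈ [0, 1, 2, 3, 4, 5, 6, 0, 1, 2, 3, 4, 5, 6], i < Cfsg.Lie.chevE8.rank)
  have hw : orderOf (sysE8.wperm L) = 9 := sysE8.orderOf_wperm (by simpa [L] using chk_nine)
  let w : ↥(weylPerms sysE8) := ⟨sysE8.wperm L, L, rfl⟩
  have hw' : orderOf w = 9 := by rw [← Subgroup.orderOf_coe]; exact hw
  have hp : IsPGroup 3 (Subgroup.zpowers w) :=
    IsPGroup.of_card (n := 2) (by rw [Nat.card_zpowers, hw']; rfl)
  obtain ⟨T, hT⟩ := hp.exists_le_sylow
  have hf : (Nat.card ↥(weylPerms sysE8)).factorization 3 = 5 := by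
    rw [hcard, show 696729600 = 3 ^ 5 * 2867200 by norm_num,
      Nat.factorization_mul (by norm_num) (by norm_num), Finsupp.add_apply,
      Nat.Prime.factorization_pow Nat.prime_three, Finsupp.single_eq_same,
      Nat.factorization_eq_zero_of_not_dvd (by norm_num)]
  let P : Sylow 3 ↥(weylPerms sysE8) := Sylow.ofCard R (by rw [hf, hR])
  obtain ⟨g, hg⟩ := MulAction.exists_smul_eq ↥(weylPerms sysE8) T P
  refine ⟨g * w * g⁻¹, ?_, fun h => ?_⟩
  · have := congrArg (fun U : Sylow 3 ↥(weylPerms sysE8) => (U : Subgroup ↥(weylPerms sysE8))) hg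
    have hmem : g * w * g⁻¹ ∈ (P : Subgroup ↥(weylPerms sysE8)) :=
      (SetLike.ext_iff.1 this _).1 ⟨w, hT (Subgroup.mem_zpowers w), rfl⟩
    exact hmem
  · rw [conj_pow, conj_eq_one_iff] at h
    have := orderOf_dvd_of_pow_eq_one h
    rw [hw'] at this
    norm_num at this

end CfsgLib.E8Alt74
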