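import Cfsg.Agent.F4AltSection.Torus
import Cfsg.Agent.Chevalley.Data.SysE8
import Cfsg.Agent.E8PSLThree56.Torus73
import Mathlib.RingTheory.RootsOfUnity.PrimitiveRoots

/-!
Eigenspaces on the adjoint module of torus elements of prime order in the Chevalley group of type E8.
-/

set_option autoImplicit false

namespace CfsgLib.E8Alt74

open Cfsg.Lie CfsgLib.Chevalley Module

local notation "S" => sysE8

variable {F : Type} [Field F] {ℓ : ℕ} [Fact ℓ.Prime] {ζ : Fˣ}

/-- The linear function on the roots with the given values on the simple roots. -/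
noncomputable def linVal (f : Fin 8 → ZMod ℓ) (s : Fin chevE8.nroots) : ZMod ℓ :=
  ∑ m : Fin 8, (Sys.vec S m s : ZMod ℓ) * f m

theorem zval_inj (hζ : orderOf ζ = ℓ) {a b : ZMod ℓ} (h : ζ ^ a.val = ζ ^ b.val) : a = b := by
  rw [pow_eq_pow_iff_modEq, hζ, ← ZMod.natCast_eq_natCast_iff, ZMod.natCast_zmod_val,
    ZMod.natCast_zmod_val] at h
  exact h

theorem zval_int (hζ : orderOf ζ = ℓ) (k : ℤ) : ζ ^ (k : ZMod ℓ).val = ζ ^ k := by
  rw [← zpow_natCast, zpow_eq_zpow_iff_modEq, hζ, ← ZMod.intCast_eq_intCast_iff, Int.cast_natCast,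
    ZMod.natCast_zmod_val]

theorem torusVal_mul_pow (c : ℕ → Fˣ) (k s : ℕ) :
    torusVal chevE8 (c ^ k) s = torusVal chevE8 c s ^ k := by
  simp only [torusVal, Pi.pow_apply, ← Finset.prod_pow]
  refine Finset.prod_congr rfl fun j _ => ?_
  rw [← zpow_natCast, ← zpow_natCast (c j ^ _), ← zpow_mul, ← zpow_mul, mul_comm]

/-- A torus element of prime order is given by a linear function on the roots. -/
theorem exists_log [Fintype F] (hζ : orderOf ζ = ℓ) {t : GL chevE8.Idx F}
    (ht : t ∈ chevE8.diagonalSubgroup F) (hℓ : t ^ ℓ = 1) :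
    ∃ (c : ℕ → Fˣ) (f : Fin 8 → ZMod ℓ), tor chevE8 F c = t ∧
      ∀ s : Fin chevE8.nroots, torusVal chevE8 c s = ζ ^ (linVal f s).val := by
  classical
  obtain ⟨c, rfl⟩ := (Sys.diagonal_eq S (F := F)) ▸ ht
  have hroot : ∀ s : Fin chevE8.nroots, torusVal chevE8 c s ^ ℓ = 1 := fun s => by
    have h' := congrArg (fun M : GL chevE8.Idx F =>
      (M : Matrix chevE8.Idx chevE8.Idx F) (Sum.inr s) (Sum.inr s)) hℓ
    rw [← map_pow] at h'
    simp only [Sys.tor_val S, dg, Matrix.diagonal_apply_eq, Sum.elim_inr, Units.val_one,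
      Matrix.one_apply_eq] at h'
    rw [torusVal_mul_pow] at h'
    exact Units.ext (by simpa using h')
  have hroots : Subgroup.zpowers ζ = rootsOfUnity ℓ F :=
    IsPrimitiveRoot.zpowers_eq (hζ ▸ IsPrimitiveRoot.orderOf ζ)
  have hlog : ∀ s : Fin chevE8.nroots, ∃ e : ℤ, ζ ^ e = torusVal chevE8 c s := fun s => by
    rw [← Subgroup.mem_zpowers_iff, hroots, mem_rootsOfUnity]
    exact hroot s
  choose e he using hlog
  have hlt : ∀ m : Fin 8, chevE8.simple m < chevE8.nroots := by decide +kernel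
  refine ⟨c, fun m => (e ⟨chevE8.simple m, hlt m⟩ : ZMod ℓ), rfl, fun s => ?_⟩
  have h : linVal (fun m : Fin 8 => ((e ⟨chevE8.simple m, hlt m⟩ : ℤ) : ZMod ℓ)) s =
      ((∑ m : Fin 8, Sys.vec S m s * e ⟨chevE8.simple m, hlt m⟩ : ℤ) : ZMod ℓ) := by
    simp [linVal]
  have hsum : ∀ (T : Finset (Fin 8)) (g : Fin 8 → ℤ), ζ ^ (∑ m ∈ T, g m) = ∏ m ∈ T, ζ ^ g m := by
    intro T g
    induction T using Finset.induction_on with
    | empty => simp
    | insert a T ha ih => rw [Finset.sum_insert ha, Finset.prod_insert ha, zpow_add, ih]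
  rw [h, zval_int hζ, hsum, F4AltSection.torusVal_vec S c s.isLt, Finset.prod_range]
  refine Finset.prod_congr rfl fun m _ => ?_
  rw [mul_comm, zpow_mul, he]

/-- Eigenspaces of a torus element, counted through its linear function. -/
theorem finrank_eigen_tor (hζ : orderOf ζ = ℓ) {c : ℕ → Fˣ} {f : Fin 8 → ZMod ℓ}
    (hc : ∀ s : Fin chevE8.nroots, torusVal chevE8 c s = ζ ^ (linVal f s).val) (v : ZMod ℓ) :
    finrank F ↥(Module.End.eigenspace (Matrix.toLin'
      ((tor chevE8 F c : GL chevE8.Idx F) : Matrix chevE8.Idx chevE8.Idx F)) ((ζ ^ v.val : Fˣ) : F)) =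
      (if v = 0 then 8 else 0) +
        (Finset.univ.filter fun s : Fin chevE8.nroots => linVal f s = v).card := by
  classical
  rw [Sys.tor_val S, dg, E8PSLThree56.finrank_eigenspace_diagonal, Finset.card_filter,
    Fintype.sum_sum_type, Finset.card_filter]
  have h1 : (1 : F) = ((ζ ^ v.val : Fˣ) : F) ↔ v = 0 := by
    refine ⟨fun h => ?_, fun h => by simp [h]⟩
    refine zval_inj hζ ?_
    rw [ZMod.val_zero, pow_zero]
    exact (Units.ext (by rw [Units.val_one]; exact h)).symm
  refine congrArg₂ (· + ·) ?_ ?_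
  · simp only [Sum.elim_inl, h1]
    rw [Finset.sum_const, Finset.card_univ, Fintype.card_fin, smul_eq_mul]
    by_cases hv : v = 0 <;> simp [hv, show chevE8.rank = 8 from rfl]
  · refine Finset.sum_congr rfl fun s _ => ?_
    refine if_congr ?_ rfl rfl
    rw [Sum.elim_inr, hc]
    exact ⟨fun h => zval_inj hζ (Units.ext h), fun h => by rw [h]⟩

/-- Torus elements with vanishing linear function are trivial. -/
theorem tor_eq_one {c : ℕ → Fˣ} {f : Fin 8 → ZMod ℓ}
    (hc : ∀ s : Fin chevE8.nroots, torusVal chevE8 c s = ζ ^ (linVal f s).val) (hf : f = 0) :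
    tor chevE8 F c = 1 := by
  subst hf
  refine Units.ext ?_
  rw [Sys.tor_val S, Units.val_one]
  exact dg_one fun r hr => by simp [hc ⟨r, hr⟩, linVal]

/-- The eigenspaces of an element of prime order conjugate into the torus. -/
theorem exists_profile [Fintype F] (hζ : orderOf ζ = ℓ) {g x : GL chevE8.Idx F}
    (hd : g * x * g⁻¹ ∈ chevE8.diagonalSubgroup F) (hx : x ^ ℓ = 1) (hne : x ≠ 1) :
    ∃ f : Fin 8 → ZMod ℓ, f ≠ 0 ∧ ∀ v : ZMod ℓ,
      finrank F ↥(Module.End.eigenspace (Matrix.toLin'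
        (x : Matrix chevE8.Idx chevE8.Idx F)) ((ζ ^ v.val : Fˣ) : F)) =
        (if v = 0 then 8 else 0) +
          (Finset.univ.filter fun s : Fin chevE8.nroots => linVal f s = v).card := by
  obtain ⟨c, f, hct, hc⟩ := exists_log hζ hd (by rw [conj_pow, hx]; group)
  refine ⟨f, fun hf => hne ?_, fun v => ?_⟩
  · rw [tor_eq_one hc hf] at hct
    exact conj_eq_one_iff.mp hct.symm
  · rw [← finrank_eigen_tor hζ hc v, hct, E8PSLThree56.finrank_eigenspace_conj]

/-- An element of prime order conjugate into the torus and to its power of exponent `j` has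
invariant root value counts. -/
theorem count_scale [Fintype F] (hζ : orderOf ζ = ℓ) {g x y : GL chevE8.Idx F} {j : ℕ}
    (hd : g * x * g⁻¹ ∈ chevE8.diagonalSubgroup F) (hx : x ^ ℓ = 1) (hne : x ≠ 1)
    (hy : y * x * y⁻¹ = x ^ j) (hj : (j : ZMod ℓ) ≠ 0) :
    ∃ f : Fin 8 → ZMod ℓ, f ≠ 0 ∧ ∀ v : ZMod ℓ, v ≠ 0 →
      (Finset.univ.filter fun s : Fin chevE8.nroots => linVal f s = (j : ZMod ℓ) * v).card =
        (Finset.univ.filter fun s : Fin chevE8.nroots => linVal f s = v).card := by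
  classical
  obtain ⟨c, f, hct, hc⟩ := exists_log hζ hd (by rw [conj_pow, hx]; group)
  refine ⟨f, fun hf => hne ?_, fun v hv => ?_⟩
  · rw [tor_eq_one hc hf] at hct
    exact conj_eq_one_iff.mp hct.symm
  have hcj : ∀ s : Fin chevE8.nroots,
      torusVal chevE8 (c ^ j) s = ζ ^ (linVal (fun m => (j : ZMod ℓ) * f m) s).val := fun s => by
    rw [torusVal_mul_pow, hc, ← pow_mul, pow_eq_pow_iff_modEq, hζ, ← ZMod.natCast_eq_natCast_iff,
      Nat.cast_mul, ZMod.natCast_zmod_val, ZMod.natCast_zmod_val, linVal, linVal, Finset.sum_mul]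
    exact Finset.sum_congr rfl fun m _ => by ring
  have h1 := finrank_eigen_tor hζ hcj ((j : ZMod ℓ) * v)
  have h2 := finrank_eigen_tor hζ hc ((j : ZMod ℓ) * v)
  rw [map_pow, hct, conj_pow, ← hy, E8PSLThree56.finrank_eigenspace_conj,
    E8PSLThree56.finrank_eigenspace_conj] at h1
  rw [hct, E8PSLThree56.finrank_eigenspace_conj, h1] at h2
  simp only [mul_eq_zero, hj, hv, or_self, if_false, zero_add] at h2
  rw [← h2]
  refine congrArg Finset.card (Finset.filter_congr fun s _ => ?_)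
  have : linVal (fun m => (j : ZMod ℓ) * f m) s = (j : ZMod ℓ) * linVal f s := by
    rw [linVal, linVal, Finset.mul_sum]
    exact Finset.sum_congr rfl fun m _ => by ring
  rw [this, mul_right_inj' hj]

end CfsgLib.E8Alt74
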